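import Cfsg.Agent.Lib.Helper82.CY2U.DefsB

set_option autoImplicit false
set_option linter.unusedSectionVars false
set_option warn.classDefReducibility false

namespace Cfsg.Agent.Lib.Helper82.CY2U

open scoped BigOperators ComplexConjugate
open Cfsg Cfsg.Agent.Lib.Helper20 Cfsg.Agent.Lib.Helper81 Cfsg.Agent.Lib.Helper80

variable {G : Type*} [Group G] [Fintype G]

/-- the conjugate character `h ↦ θ (g⁻¹ h g)` -/
noncomputable def act_cj (H : Subgroup G) {g : G} (hg : g ∈ Subgroup.normalizer (H : Set G))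
    (θ : IrrCharacter H) : IrrCharacter H :=
  irrMap (cjIso H H g (mem_iff_of_mem_normalizer hg)) θ

theorem act_cj_apply (H : Subgroup G) {g : G} (hg : g ∈ Subgroup.normalizer (H : Set G))
    (θ : IrrCharacter H) (h : H) :
    (act_cj H hg θ : H → ℂ) h
      = (θ : H → ℂ) ⟨g⁻¹ * (h : G) * g, (mem_iff_of_mem_normalizer hg h).1 h.2⟩ := rfl

theorem act_cj_iff (H : Subgroup G) {g : G} (hg : g ∈ Subgroup.normalizer (H : Set G))
    (θ φ : IrrCharacter H) :
    act_cj H hg θ = φ ↔ IsConjCharOf H g (θ : H → ℂ) (φ : H → ℂ) := by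
  unfold IsConjCharOf
  rw [conj_rel_iff (mem_iff_of_mem_normalizer hg)]
  constructor
  · intro h
    rw [← h]
    rfl
  · intro h
    apply Subtype.ext
    rw [h]
    rfl

noncomputable def cjAct (H N : Subgroup G) (hN : N ≤ Subgroup.normalizer (H : Set G)) :
    MulAction N (IrrCharacter H) where
  smul g θ := act_cj H (hN g.2) θ
  one_smul θ := by
    apply Subtype.ext
    funext h
    change (act_cj H (hN (1 : N).2) θ : H → ℂ) h = _
    rw [act_cj_apply]
    apply congrArg
    apply Subtype.ext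
    simp
  mul_smul a b θ := by
    apply Subtype.ext
    funext h
    change (act_cj H (hN (a * b).2) θ : H → ℂ) h
      = (act_cj H (hN a.2) (act_cj H (hN b.2) θ) : H → ℂ) h
    rw [act_cj_apply, act_cj_apply, act_cj_apply]
    apply congrArg
    apply Subtype.ext
    simp [mul_assoc]

theorem cjAct_iff (H N : Subgroup G) (hN : N ≤ Subgroup.normalizer (H : Set G)) (g : N)
    (θ φ : IrrCharacter H) :
    (letI := cjAct H N hN; g • θ = φ) ↔ IsConjCharOf H (g : G) (θ : H → ℂ) (φ : H → ℂ) :=
  act_cj_iff H (hN g.2) θ φ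

theorem cjAct_triv (H N : Subgroup G) (hN : N ≤ Subgroup.normalizer (H : Set G)) (g : N)
    (hg : (g : G) ∈ H) (θ : IrrCharacter H) : (letI := cjAct H N hN; g • θ = θ) := by
  apply Subtype.ext
  funext h
  change (act_cj H (hN g.2) θ : H → ℂ) h = _
  rw [act_cj_apply]
  haveI : Fintype H := Fintype.ofFinite _
  have h1 := irr_classFunction θ h (⟨(g : G), hg⟩ : H)⁻¹
  rw [← h1]
  apply congrArg
  apply Subtype.ext
  simp

end Cfsg.Agent.Lib.Helper82.CY2U
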