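import Cfsg.Agent.Lib.Helper82.CY2U.ACT

set_option autoImplicit false
set_option linter.unusedSectionVars false

namespace Cfsg.Agent.Lib.Helper82.CY2U

open scoped BigOperators ComplexConjugate
open Cfsg Cfsg.Agent.Lib.Helper20 Cfsg.Agent.Lib.Helper81 Cfsg.Agent.Lib.Helper80

variable {p : ℕ} [Fact p.Prime] {M : Ideal AlgInt} {G : Type*} [Group G] [Fintype G]

theorem stab_of_mem (hM : IsPModular p M) (H : Subgroup G) {β : Set (IrrCharacter H)}
    (hβ : IsPBlock M β) {g : G} (hg : g ∈ Subgroup.normalizer (H : Set G)) {θ φ : IrrCharacter H}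
    (hθ : θ ∈ β) (hφ : φ ∈ β) (h : IsConjCharOf H g (θ : H → ℂ) (φ : H → ℂ)) :
    StabilizesBlock H β g := by
  haveI : Fintype H := Fintype.ofFinite _
  have hK := mem_iff_of_mem_normalizer hg
  have hblk : IsPBlock M (cjSet H H g β) := isPBlock_cjSet (M := M) hK hβ
  have hφ' : φ ∈ cjSet H H g β := ⟨θ, hθ, h⟩
  have heq : cjSet H H g β = β := by
    rw [isPBlock_eq_blockOf hM hblk hφ', isPBlock_eq_blockOf hM hβ hφ]
  refine ⟨hg, fun χ hχ => ⟨act_cj H hg χ, ?_, (act_cj_iff H hg χ _).1 rfl⟩⟩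
  rw [← heq]
  exact ⟨χ, hχ, (act_cj_iff H hg χ _).1 rfl⟩

end Cfsg.Agent.Lib.Helper82.CY2U
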