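import Cfsg.Agent.Lib.Helper82.CY2U.ACT

set_option autoImplicit false
set_option linter.unusedSectionVars false

namespace Cfsg.Agent.Lib.Helper82.CY2U

open scoped BigOperators ComplexConjugate
open Cfsg Cfsg.Agent.Lib.Helper20 Cfsg.Agent.Lib.Helper81 Cfsg.Agent.Lib.Helper80

variable {G : Type*} [Group G] [Fintype G]

open Classical in
theorem conj_ip (H : Subgroup G) [Fintype H] {g : G} (hg : g ∈ Subgroup.normalizer (H : Set G))
    (θ φ : IrrCharacter H) :
    classInner (θ : H → ℂ) (fun h : H => extendByZero H (φ : H → ℂ) (g * (h : G) * g⁻¹))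
      = if IsConjCharOf H g (θ : H → ℂ) (φ : H → ℂ) then 1 else 0 := by
  have hg' : g⁻¹ ∈ Subgroup.normalizer (H : Set G) := Subgroup.inv_mem _ hg
  have e1 : (fun h : H => extendByZero H (φ : H → ℂ) (g * (h : G) * g⁻¹))
      = (act_cj H hg' φ : H → ℂ) := by
    funext h
    rw [act_cj_apply]
    have hm : g * (h : G) * g⁻¹ ∈ H := by
      have := (mem_iff_of_mem_normalizer hg' h).1 h.2
      simpa using this
    rw [Cfsg.Agent.Lib.Helper19.extendByZero_of_mem H _ hm]
    apply congrArg
    apply Subtype.ext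
    simp
  rw [e1, classInner_irr θ.2 (act_cj H hg' φ).2]
  have hiff : ((θ : H → ℂ) = (act_cj H hg' φ : H → ℂ)) ↔
      IsConjCharOf H g (θ : H → ℂ) (φ : H → ℂ) := by
    rw [← act_cj_iff H hg θ φ]
    constructor
    · intro h
      apply Subtype.ext
      funext x
      rw [act_cj_apply, h, act_cj_apply]
      apply congrArg
      apply Subtype.ext
      simp [mul_assoc]
    · intro h
      rw [← h]
      funext x
      rw [act_cj_apply, act_cj_apply]
      apply congrArg
      apply Subtype.ext
      simp [mul_assoc]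
  by_cases hc : IsConjCharOf H g (θ : H → ℂ) (φ : H → ℂ)
  · rw [if_pos hc, if_pos (hiff.2 hc)]
  · rw [if_neg hc, if_neg (fun h => hc (hiff.1 h))]

end Cfsg.Agent.Lib.Helper82.CY2U
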