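import Cfsg.Agent.Lib.Helper82.CY2U.ISO
import Cfsg.Agent.Lib.Helper82.CY2U.CONJIP

set_option autoImplicit false
set_option linter.unusedSectionVars false

/-! Ladder CY2U: the Gram matrix of the induced differences. -/

namespace Cfsg.Agent.Lib.Helper82.CY2U

open scoped BigOperators ComplexConjugate
open Cfsg Cfsg.Agent.Lib.Helper20

variable {G : Type*} [Group G] [Fintype G]

theorem gr_ext_sub (H : Subgroup G) (a b : H → ℂ) (y : G) :
    extendByZero H (a - b) y = extendByZero H a y - extendByZero H b y := by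
  by_cases hy : y ∈ H
  · rw [Cfsg.Agent.Lib.Helper19.extendByZero_of_mem H _ hy,
      Cfsg.Agent.Lib.Helper19.extendByZero_of_mem H _ hy,
      Cfsg.Agent.Lib.Helper19.extendByZero_of_mem H _ hy]
    rfl
  · rw [Cfsg.Agent.Lib.Helper19.extendByZero_of_not_mem H _ hy,
      Cfsg.Agent.Lib.Helper19.extendByZero_of_not_mem H _ hy,
      Cfsg.Agent.Lib.Helper19.extendByZero_of_not_mem H _ hy, sub_zero]

theorem gr_ind_sub (H : Subgroup G) (a b : H → ℂ) :
    indFun H (a - b) = indFun H a - indFun H b := by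
  funext g
  change _ = indFun H a g - indFun H b g
  unfold indFun
  rw [← mul_sub, ← Finset.sum_sub_distrib]
  congr 1
  exact Finset.sum_congr rfl (fun x _ => gr_ext_sub H a b _)

/-- the number of elements of `N` conjugating `θ` to `φ` -/
noncomputable def cc (H N : Subgroup G) (θ φ : IrrCharacter H) : ℕ :=
  Nat.card {g : N // IsConjCharOf H (g : G) (θ : H → ℂ) (φ : H → ℂ)}

theorem gram_ind (H N : Subgroup G) [Fintype H] [Fintype N]
    (hN : N ≤ Subgroup.normalizer (H : Set G)) (A : Set G)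
    (hTI : ∀ x ∈ A, ∀ g : G, g * x * g⁻¹ ∈ A → g ∈ N) (θ θ' φ φ' : IrrCharacter H)
    (h1 : ∀ h : H, (θ : H → ℂ) h - (θ' : H → ℂ) h ≠ 0 → (h : G) ∈ A)
    (h2 : ∀ h : H, (φ : H → ℂ) h - (φ' : H → ℂ) h ≠ 0 → (h : G) ∈ A) :
    classInner (indFun H ((θ : H → ℂ) - (θ' : H → ℂ))) (indFun H ((φ : H → ℂ) - (φ' : H → ℂ)))
      = (Nat.card H : ℂ)⁻¹ * ((cc H N θ φ : ℂ) - cc H N θ φ' - cc H N θ' φ + cc H N θ' φ') := by
  classical
  rw [iso_ind H N A hTI ((θ : H → ℂ) - (θ' : H → ℂ)) ((φ : H → ℂ) - (φ' : H → ℂ)) h1 h2]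
  congr 1
  have hterm : ∀ g : N, classInner ((θ : H → ℂ) - (θ' : H → ℂ))
      (fun h : H => extendByZero H ((φ : H → ℂ) - (φ' : H → ℂ)) ((g : G) * (h : G) * (g : G)⁻¹))
      = (if IsConjCharOf H (g : G) (θ : H → ℂ) (φ : H → ℂ) then (1 : ℂ) else 0)
        - (if IsConjCharOf H (g : G) (θ : H → ℂ) (φ' : H → ℂ) then (1 : ℂ) else 0)
        - (if IsConjCharOf H (g : G) (θ' : H → ℂ) (φ : H → ℂ) then (1 : ℂ) else 0)
        + (if IsConjCharOf H (g : G) (θ' : H → ℂ) (φ' : H → ℂ) then (1 : ℂ) else 0) := by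
    intro g
    have e1 : (fun h : H => extendByZero H ((φ : H → ℂ) - (φ' : H → ℂ))
        ((g : G) * (h : G) * (g : G)⁻¹))
        = (fun h : H => extendByZero H (φ : H → ℂ) ((g : G) * (h : G) * (g : G)⁻¹))
          - (fun h : H => extendByZero H (φ' : H → ℂ) ((g : G) * (h : G) * (g : G)⁻¹)) := by
      funext h
      exact gr_ext_sub H _ _ _
    rw [e1, classInner_sub_left, classInner_sub_right, classInner_sub_right,
      conj_ip H (hN g.2), conj_ip H (hN g.2), conj_ip H (hN g.2), conj_ip H (hN g.2)]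
    ring
  rw [Finset.sum_congr rfl (fun g _ => hterm g)]
  have hcount : ∀ a b : IrrCharacter H,
      ∑ g : N, (if IsConjCharOf H (g : G) (a : H → ℂ) (b : H → ℂ) then (1 : ℂ) else 0)
        = (cc H N a b : ℂ) := by
    intro a b
    rw [Finset.sum_boole, cc, Nat.card_eq_fintype_card, Fintype.card_subtype]
  rw [Finset.sum_add_distrib, Finset.sum_sub_distrib, Finset.sum_sub_distrib, hcount, hcount,
    hcount, hcount]

end Cfsg.Agent.Lib.Helper82.CY2U
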