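import Cfsg.Agent.Lib.Helper82.CY2U.DefsB

set_option autoImplicit false
set_option linter.unusedSectionVars false

namespace Cfsg.Agent.Lib.Helper82.CY2U

open scoped BigOperators ComplexConjugate
open Cfsg Cfsg.Agent.Lib.Helper20 Cfsg.Agent.Lib.Helper81 Cfsg.Agent.Lib.Helper80
open Cfsg.Agent.Lib.Helper80.GA Cfsg.Agent.Lib.Helper5 Cfsg.Agent.Lib.Helper83.Wat

variable {p : ℕ} [Fact p.Prime] {M : Ideal AlgInt} {G : Type*} [Group G] [Fintype G]

theorem inb (hM : IsPModular p M) {B : Set (IrrCharacter G)} (H : Subgroup G)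
    {β : Set (IrrCharacter H)} (hind : IsInducedBlock M H β B) {θ θ' : IrrCharacter H}
    (hθ : θ ∈ β) (hθ' : θ' ∈ β)
    (hsupp : ∀ h : H, (θ : H → ℂ) h - (θ' : H → ℂ) h ≠ 0 → ∀ u : G, IsPPart p (h : G) u →
      Subgroup.centralizer ({u} : Set G) ≤ H)
    {χ : IrrCharacter G} (hχ : χ ∉ B) :
    classInner (indFun H (θ : H → ℂ)) (χ : G → ℂ) = classInner (indFun H (θ' : H → ℂ)) (χ : G → ℂ) := by
  classical
  haveI : Fintype H := Fintype.ofFinite _
  have hcl : IsClassFunction H (fun h : H => (χ : G → ℂ) h) := by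
    intro g h
    exact irr_classFunction χ (g : G) (h : G)
  rw [Cfsg.Agent.Lib.Helper19.frobenius_reciprocity H _ _ (irr_classFunction χ),
    Cfsg.Agent.Lib.Helper19.frobenius_reciprocity H _ _ (irr_classFunction χ)]
  rw [← classInner_conj_symm _ (θ : H → ℂ), ← classInner_conj_symm _ (θ' : H → ℂ)]
  congr 1
  rw [← classInner_blockPart β _ hθ, ← classInner_blockPart β _ hθ', ← sub_eq_zero,
    ← classInner_sub_right]
  unfold classInner
  rw [Finset.sum_eq_zero, mul_zero]
  intro h _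
  by_cases h0 : (θ : H → ℂ) h - (θ' : H → ℂ) h = 0
  · have : ((θ : H → ℂ) - (θ' : H → ℂ)) h = 0 := h0
    rw [this, map_zero, mul_zero]
  · have h1 : blockPart β (fun h : H => (χ : G → ℂ) h) h = 0 := by
      rw [blockPart_eq_sum_blockCoeff β hcl]
      exact second_main hM H hind h.2 (hsupp h h0) χ hχ
    rw [h1, zero_mul]

end Cfsg.Agent.Lib.Helper82.CY2U
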