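import Cfsg.Agent.Lib.Helper82.CY2U.DefsB

set_option autoImplicit false
set_option linter.unusedSectionVars false

namespace Cfsg.Agent.Lib.Helper82.CY2U

open scoped BigOperators ComplexConjugate
open Cfsg Cfsg.Agent.Lib.Helper20 Cfsg.Agent.Lib.Helper81 Cfsg.Agent.Lib.Helper80
open Cfsg.Agent.Lib.Helper80.GA Cfsg.Agent.Lib.Helper5 Cfsg.Agent.Lib.Helper83.Wat

variable {p : ℕ} [Fact p.Prime] {M : Ideal AlgInt} {G : Type*} [Group G] [Fintype G]

/-- rung KDIM (helper10): rank-nullity -/
theorem finrank_KK (p : ℕ) (B : Set (IrrCharacter G)) [Fintype (IrrCharacter G)] :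
    Module.finrank ℂ (KK p B) + blockRank p B = Nat.card B := by
  classical
  have key : ∀ (f : IrrCharacter G → ℂ), (∀ χ, χ ∉ B → f χ = 0) → ∑ χ : B, f χ = ∑ χ, f χ := by
    intro f hf
    rw [← Finset.sum_subtype (Finset.univ.filter (· ∈ B)) (by simp) f]
    apply Finset.sum_subset (Finset.subset_univ _)
    intro χ _ hχ
    exact hf χ (by simpa using hχ)
  let v : B → (G → ℂ) := fun χ => pRegularPart p ((χ : IrrCharacter G) : G → ℂ)
  let L : (B → ℂ) →ₗ[ℂ] (G → ℂ) := Fintype.linearCombination ℂ v
  have hLapp : ∀ (d : B → ℂ) (g : G), L d g = ∑ χ : B, d χ * v χ g := by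
    intro d g
    simp [L, Fintype.linearCombination_apply, Finset.sum_apply]
  have hrange : Module.finrank ℂ (LinearMap.range L) = blockRank p B := by
    unfold blockRank
    have : LinearMap.range L
        = Submodule.span ℂ ((fun χ : IrrCharacter G => pRegularPart p (χ : G → ℂ)) '' B) := by
      rw [Fintype.range_linearCombination, Set.image_eq_range]
    rw [this]
  let ρ : (KK p B) →ₗ[ℂ] (B → ℂ) :=
    (LinearMap.funLeft ℂ ℂ (Subtype.val : B → IrrCharacter G)).comp (KK p B).subtype
  have hρapp : ∀ (c : KK p B) (χ : B), ρ c χ = (c : IrrCharacter G → ℂ) χ := fun c χ => rfl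
  have hinj : Function.Injective ρ := by
    intro a b hab
    apply Subtype.ext
    funext χ
    by_cases hχ : χ ∈ B
    · have := congrFun hab ⟨χ, hχ⟩
      simpa [hρapp] using this
    · rw [a.2.1 χ hχ, b.2.1 χ hχ]
  have hker : LinearMap.range ρ = LinearMap.ker L := by
    apply le_antisymm
    · rintro _ ⟨c, rfl⟩
      rw [LinearMap.mem_ker]
      funext g
      rw [hLapp]
      by_cases hg : IsPRegular p g
      · have h1 := c.2.2 g hg
        rw [← key (fun χ => (c : IrrCharacter G → ℂ) χ * (χ : G → ℂ) g)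
          (fun χ hχ => by simp [c.2.1 χ hχ])] at h1
        simpa [hρapp, v, pRegularPart, hg] using h1
      · simp [v, pRegularPart, hg]
    · intro d hd
      rw [LinearMap.mem_ker] at hd
      have hmem : (fun χ : IrrCharacter G => if h : χ ∈ B then d ⟨χ, h⟩ else 0) ∈ KK p B := by
        refine ⟨fun χ hχ => by simp [hχ], fun g hg => ?_⟩
        rw [← key (fun χ => (if h : χ ∈ B then d ⟨χ, h⟩ else 0) * (χ : G → ℂ) g)
          (fun χ hχ => by simp [hχ])]
        have h1 := congrFun hd g
        rw [hLapp] at h1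
        simpa [v, pRegularPart, hg] using h1
      refine ⟨⟨_, hmem⟩, ?_⟩
      funext χ
      rw [hρapp]
      simp
  have h1 := LinearMap.finrank_range_add_finrank_ker L
  rw [hrange, ← hker, LinearMap.finrank_range_of_inj hinj, Module.finrank_fintype_fun_eq_card] at h1
  rw [Nat.card_eq_fintype_card]
  omega

end Cfsg.Agent.Lib.Helper82.CY2U
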