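import Cfsg.Agent.Lib.Helper82.CY2U.DefsB
import Cfsg.Agent.Lib.Helper81.CY3.NZ

set_option autoImplicit false
set_option linter.unusedSectionVars false

namespace Cfsg.Agent.Lib.Helper82.CY2U

open scoped BigOperators ComplexConjugate
open Cfsg Cfsg.Agent.Lib.Helper20 Cfsg.Agent.Lib.Helper81 Cfsg.Agent.Lib.Helper80
open Cfsg.Agent.Lib.Helper80.GA Cfsg.Agent.Lib.Helper5 Cfsg.Agent.Lib.Helper83.Wat

variable {p : ℕ} [Fact p.Prime] {M : Ideal AlgInt} {G : Type*} [Group G] [Fintype G]

theorem KK_ne (hM : IsPModular p M) {B : Set (IrrCharacter G)} (hB : IsPBlock M B) {D : Subgroup G}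
    (hPD : IsDefectGroup p M B D) (hab : ∀ x ∈ D, ∀ y ∈ D, x * y = y * x) (hD1 : D ≠ ⊥)
    [Fintype (IrrCharacter G)] {χ0 : IrrCharacter G} (hχ0 : χ0 ∈ B) :
    ∃ c ∈ KK p B, c χ0 ≠ 0 := by
  classical
  have hp : p.Prime := Fact.out
  have hd : blockDefect p B ≠ 0 := by
    intro h0
    have h1 := Cfsg.Agent.Lib.Helper21.card_defectGroup hM B hB D hPD
    rw [h0, pow_zero] at h1
    exact hD1 ((Subgroup.card_eq_one).1 h1)
  obtain ⟨g₀, hg₀, hne⟩ := Cfsg.Agent.Lib.Helper81.CY3.nz hM hB hd hχ0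
  refine ⟨fun χ => if χ ∈ B then (if χ = χ0 then 1 else 0)
      - classInner (pRegularPart p (χ0 : G → ℂ)) (χ : G → ℂ) else 0, ⟨?_, ?_⟩, ?_⟩
  · intro χ hχ
    simp only [if_neg hχ]
  · intro g hg
    have h1 : ∀ χ : IrrCharacter G, (if χ ∈ B then (if χ = χ0 then (1 : ℂ) else 0)
        - classInner (pRegularPart p (χ0 : G → ℂ)) (χ : G → ℂ) else 0) * (χ : G → ℂ) g
        = (if χ = χ0 then (χ : G → ℂ) g else 0)
          - (if χ ∈ B then classInner (pRegularPart p (χ0 : G → ℂ)) (χ : G → ℂ) * (χ : G → ℂ) g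
              else 0) := by
      intro χ
      by_cases hχ : χ ∈ B
      · simp only [if_pos hχ]
        split_ifs <;> ring
      · have : χ ≠ χ0 := fun h => hχ (h ▸ hχ0)
        simp only [if_neg hχ, if_neg this]
        ring
    simp_rw [h1]
    rw [Finset.sum_sub_distrib, Finset.sum_ite_eq' Finset.univ χ0, if_pos (Finset.mem_univ _),
      ← finsum_mem_irr, ← blockPart_eq_finsum, blockPart_pRegularPart hM B hB, blockPart_irr,
      if_pos hχ0, pRegularPart_eq]
    simp only [if_pos hg, sub_self]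
  · simp only [if_pos hχ0, if_true]
    rw [← classInner_irr_self χ0.2, ← classInner_sub_left]
    unfold classInner
    have hG : (Nat.card G : ℂ) ≠ 0 := card_ne_zero_complex
    apply mul_ne_zero (inv_ne_zero hG)
    have h2 : ∀ g : G, ((χ0 : G → ℂ) - pRegularPart p (χ0 : G → ℂ)) g * conj ((χ0 : G → ℂ) g)
        = (((if IsPRegular p g then 0 else Complex.normSq ((χ0 : G → ℂ) g)) : ℝ) : ℂ) := by
      intro g
      rw [Pi.sub_apply, pRegularPart_eq]
      by_cases hg : IsPRegular p g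
      · simp only [if_pos hg, sub_self, zero_mul, Complex.ofReal_zero]
      · simp only [if_neg hg, sub_zero]
        rw [Complex.mul_conj]
    simp_rw [h2]
    rw [← Complex.ofReal_sum]
    have h3 : 0 < ∑ g : G, (if IsPRegular p g then 0 else Complex.normSq ((χ0 : G → ℂ) g)) := by
      apply Finset.sum_pos'
      · intro g _
        split_ifs
        · exact le_refl _
        · exact Complex.normSq_nonneg _
      · refine ⟨g₀, Finset.mem_univ _, ?_⟩
        have : ¬ IsPRegular p g₀ := fun h => h hg₀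
        rw [if_neg this]
        exact Complex.normSq_pos.2 hne
    exact_mod_cast h3.ne'

end Cfsg.Agent.Lib.Helper82.CY2U
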