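import Cfsg.Agent.Lib.Helper82.CY2U.DefsB

set_option autoImplicit false
set_option linter.unusedSectionVars false

namespace Cfsg.Agent.Lib.Helper82.CY2U

open scoped BigOperators ComplexConjugate
open Cfsg Cfsg.Agent.Lib.Helper20 Cfsg.Agent.Lib.Helper81 Cfsg.Agent.Lib.Helper80
open Cfsg.Agent.Lib.Helper80.GA Cfsg.Agent.Lib.Helper5 Cfsg.Agent.Lib.Helper83.Wat

variable {p : ℕ} [Fact p.Prime] {M : Ideal AlgInt} {G : Type*} [Group G] [Fintype G]

theorem loc1_ab {D : Subgroup G} (hcyc : IsCyclic D) : ∀ x ∈ D, ∀ y ∈ D, x * y = y * x := by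
  intro a ha b hb
  obtain ⟨g, hg⟩ := hcyc.exists_generator
  obtain ⟨i, hi⟩ := Subgroup.mem_zpowers_iff.1 (hg ⟨a, ha⟩)
  obtain ⟨j, hj⟩ := Subgroup.mem_zpowers_iff.1 (hg ⟨b, hb⟩)
  have h1 : (⟨a, ha⟩ : D) * ⟨b, hb⟩ = ⟨b, hb⟩ * ⟨a, ha⟩ := by
    rw [← hi, ← hj, ← zpow_add, ← zpow_add, add_comm]
  exact congrArg Subtype.val h1

theorem loc1_free (hM : IsPModular p M) {B : Set (IrrCharacter G)}
    {D : Subgroup G} (hcyc : IsCyclic D)
    {eD : GA (Kr hM) G} (hmax : IsMaxBP p (blkR hM B) D eD) :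
    ∀ g ∈ stabP D eD, ∀ x ∈ D, x ≠ 1 → g * x * g⁻¹ = x → g ∈ Cn D := by
  have hab := loc1_ab hcyc
  have he : IsBP p D eD := hmax.1.1
  have hN : D ⊔ Cn D ≤ stabP D eD := sup_le (le_stabP he.2.inZ) (Cn_le_stabP he.2.inZ)
  have hblk : IsBlk (D ⊔ Cn D) eD :=
    he.isBlk_of_fix le_sup_left le_sup_right (hN.trans (stabP_le_Nn D _))
      ((fixBy_stabP D _).mono hN)
  have hsp := split_sub hM hblk
  have hTp : ∀ S : Subgroup G, S ≤ stabP D eD → IsPGroup p S →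
      S ≤ Subgroup.centralizer (D : Set G) := fun S hS hSp =>
    (hmax.pSubgroup_le hsp hS hSp).trans (sup_le (le_Cn_of_abelian hab le_rfl) le_rfl)
  exact fun g hg x hx hx1 h => cyc_free he.1 hcyc (stabP_le_Nn D eD) hTp hg hx hx1 h

theorem exists_lpre (hM : IsPModular p M) {B : Set (IrrCharacter G)} (hB : IsPBlock M B)
    {D : Subgroup G} (hPD : IsDefectGroup p M B D) (hcyc : IsCyclic D) (hD1 : D ≠ ⊥)
    {eD : GA (Kr hM) G} (hmax : IsMaxBP p (blkR hM B) D eD) :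
    ∃ (z : G) (β : Set (IrrCharacter (Cn (Subgroup.zpowers z)))), LPre hM B D eD z β := by
  classical
  have hp : p.Prime := Fact.out
  have hab := loc1_ab hcyc
  have he : IsBP p D eD := hmax.1.1
  have hfree := loc1_free hM hcyc hmax
  obtain ⟨z, hzP, hz⟩ : ∃ z ∈ D, orderOf z = p := by
    have hnt : Nontrivial D := (Subgroup.nontrivial_iff_ne_bot D).2 hD1
    obtain ⟨n, hn⟩ := IsPGroup.iff_card.1 he.1
    have hdvd : p ∣ Nat.card D := by
      rcases n with _ | n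
      · rw [pow_zero] at hn
        have := Finite.one_lt_card (α := D)
        omega
      · rw [hn, pow_succ]; exact Dvd.intro_left _ rfl
    obtain ⟨z, hz⟩ := exists_prime_orderOf_dvd_card' p hdvd
    exact ⟨z, z.2, by rw [← hz, Subgroup.orderOf_coe]⟩
  have hz1 : z ≠ 1 := by
    rintro rfl
    rw [orderOf_one] at hz
    exact hp.one_lt.ne hz
  have hR : Subgroup.zpowers z ≤ D := by rw [Subgroup.zpowers_le]; exact hzP
  obtain ⟨β, hβ⟩ := bel_exists hM he hab hR rfl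
  have hle := bel_bple hM he hab hR rfl hβ
  have hbp : IsBPOf p (blkR hM B) (Subgroup.zpowers z) (bl hM (Cn (Subgroup.zpowers z)) β) :=
    hle.isBPOf_iff.1 hmax.1
  have hQ1 : Subgroup.zpowers z ≠ ⊥ := by
    rw [Ne, Subgroup.zpowers_eq_bot]; exact hz1
  have hnil := local_nilpotent_of_free hM hmax hab hfree hQ1 hβ.1 hbp
  have hPle : D ≤ Cn (Subgroup.zpowers z) := le_Cn_of_abelian hab hR
  have hind : IsInducedBlock M (Cn (Subgroup.zpowers z)) β B :=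
    (Cfsg.Agent.Lib.Helper29.Kn.isInducedBlock_iff hM hbp.1.1 (hR.trans hPle) le_rfl
      (Cn_le_Nn _) hβ.1 hB).2 hbp.2.2
  have hdefβ : IsDef p (Cn (Subgroup.zpowers z)) (bl hM (Cn (Subgroup.zpowers z)) β) D :=
    hmax.abelian_isDef_Cn hab hle
  have hβD := (isDefectGroup_sub_iff hM _ hβ.1 hPle).2 hdefβ
  exact ⟨z, β, ⟨hzP, hz, hβ.1, hle, hind, hnil, hβD⟩⟩

end Cfsg.Agent.Lib.Helper82.CY2U
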