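import Cfsg.Agent.Lib.Helper82.CY2U.DefsB
import Cfsg.Agent.Lib.Helper64.KulsNUM
import Cfsg.Agent.Lib.Helper21.DefectCard
import Cfsg.Agent.S4689

set_option autoImplicit false
set_option linter.unusedSectionVars false

namespace Cfsg.Agent.Lib.Helper82.CY2U

open scoped BigOperators ComplexConjugate
open Cfsg Cfsg.Agent.Lib.Helper20 Cfsg.Agent.Lib.Helper81 Cfsg.Agent.Lib.Helper80
open Cfsg.Agent.Lib.Helper80.GA Cfsg.Agent.Lib.Helper5 Cfsg.Agent.Lib.Helper83.Wat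

variable {p : ℕ} [Fact p.Prime] {M : Ideal AlgInt} {G : Type*} [Group G] [Fintype G]

theorem lpre_card (hM : IsPModular p M) {B : Set (IrrCharacter G)} {D : Subgroup G}
    (hcyc : IsCyclic D) {eD : GA (Kr hM) G} {z : G}
    {β : Set (IrrCharacter (Cn (Subgroup.zpowers z)))} (h : LPre hM B D eD z β) :
    Nat.card β = Nat.card D ∧
      ∀ θ ∈ β, ∀ θ' ∈ β, ∀ x : Cn (Subgroup.zpowers z), IsPRegular p x →
        (θ : Cn (Subgroup.zpowers z) → ℂ) x = (θ' : Cn (Subgroup.zpowers z) → ℂ) x := by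
  classical
  obtain ⟨hl, χ₀, hχ₀, hd⟩ := Cfsg.Agent.S4689.result p M hM β h.nil
  -- `D ≤ H`
  have hDH : D ≤ Cn (Subgroup.zpowers z) := by
    intro g hg
    rw [mem_Cn]
    intro u hu
    have huD : u ∈ D := (Subgroup.zpowers_le.2 h.zD) hu
    have hcomm : ∀ a b : D, a * b = b * a := fun a b => by
      letI := hcyc.commGroup
      exact mul_comm a b
    have := congrArg Subtype.val (hcomm ⟨u, huD⟩ ⟨g, hg⟩)
    exact this
  have e := Subgroup.subgroupOfEquivOfLe hDH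
  have hcyc' : IsCyclic (D.subgroupOf (Cn (Subgroup.zpowers z))) :=
    isCyclic_of_surjective e.symm e.symm.surjective
  obtain ⟨n, hn⟩ := Cfsg.Agent.Lib.Helper78.Cyc1.degrees_eq_cyc hM h.blk hl h.dg hcyc'
  have hc1 := Cfsg.Agent.Lib.Helper64.Kuls.card_eq_of_degrees hM h.blk hl hn
  have hc2 := Cfsg.Agent.Lib.Helper21.card_defectGroup hM β h.blk _ h.dg
  have hreg1 : IsPRegular p (1 : Cn (Subgroup.zpowers z)) := by
    simp only [IsPRegular, orderOf_one, Nat.dvd_one]; exact hM.1.one_lt.ne'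
  have hn0 : (n : ℂ) ≠ 0 := by
    have := charDegree_ne_zero χ₀
    rw [hn χ₀ hχ₀] at this
    exact_mod_cast this
  have key : ∀ θ ∈ β, ∀ x : Cn (Subgroup.zpowers z), IsPRegular p x →
      (θ : Cn (Subgroup.zpowers z) → ℂ) x = (χ₀ : Cn (Subgroup.zpowers z) → ℂ) x := by
    intro θ hθ x hx
    obtain ⟨d, hdθ⟩ := hd θ hθ
    have h1 := hdθ 1
    simp only [pRegularPart, if_pos hreg1] at h1
    rw [Cfsg.Agent.Lib.Helper81.irr_one_eq, Cfsg.Agent.Lib.Helper81.irr_one_eq, hn θ hθ,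
      hn χ₀ hχ₀] at h1
    have hd1 : (d : ℂ) = 1 := by
      have : (d : ℂ) * n = 1 * n := by rw [one_mul]; exact h1.symm
      exact mul_right_cancel₀ hn0 this
    have h2 := hdθ x
    simp only [pRegularPart, if_pos hx] at h2
    rw [h2, hd1, one_mul]
  refine ⟨?_, fun θ hθ θ' hθ' x hx => by rw [key θ hθ x hx, key θ' hθ' x hx]⟩
  rw [hc1, ← hc2]
  exact Nat.card_congr e.toEquiv

end Cfsg.Agent.Lib.Helper82.CY2U
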