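import Cfsg.Agent.Lib.Helper82.CY2U.DefsB

set_option autoImplicit false
set_option linter.unusedSectionVars false

namespace Cfsg.Agent.Lib.Helper82.CY2U

open scoped BigOperators ComplexConjugate
open Cfsg Cfsg.Agent.Lib.Helper20 Cfsg.Agent.Lib.Helper81 Cfsg.Agent.Lib.Helper80
open Cfsg.Agent.Lib.Helper80.GA Cfsg.Agent.Lib.Helper5 Cfsg.Agent.Lib.Helper83.Wat

variable {p : ℕ} [Fact p.Prime] {M : Ideal AlgInt} {G : Type*} [Group G] [Fintype G]

theorem lpre_van (hM : IsPModular p M) {B : Set (IrrCharacter G)} {D : Subgroup G}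
    {eD : GA (Kr hM) G} {z : G} {β : Set (IrrCharacter (Cn (Subgroup.zpowers z)))}
    (h : LPre hM B D eD z β) : ∀ θ ∈ β, ∀ x : Cn (Subgroup.zpowers z), ¬ IsPRegular p x →
      (x : G) ∉ AA p (Cn (Subgroup.zpowers z)) D → (θ : Cn (Subgroup.zpowers z) → ℂ) x = 0 := by
  classical
  have hp : p.Prime := Fact.out
  intro θ hθ x hx hxA
  haveI : Fintype (Cn (Subgroup.zpowers z)) := Fintype.ofFinite _
  obtain ⟨u, hu⟩ := exists_isPPart (p := p) hp x
  refine vanish_off_defect_groups hM β h.blk hu ?_ θ hθ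
  intro D' hD' huD'
  apply hxA
  obtain ⟨c, -, hc⟩ := (isDef_of_isDefectGroup hM h.blk hD').exists_conj
    (isDef_of_isDefectGroup hM h.blk h.dg)
  obtain ⟨y, hy1, hy2, hy3, hy4⟩ := hu
  refine ⟨(u : G), ⟨(y : G), ?_, ?_, ?_, ?_⟩, ?_, (c : G), c.2, ?_⟩
  · have := congrArg Subtype.val hy1
    simpa using this
  · have := congrArg Subtype.val hy2.eq
    exact this
  · obtain ⟨k, hk⟩ := hy3
    exact ⟨k, by rw [Subgroup.orderOf_coe]; exact hk⟩
  · rw [Subgroup.orderOf_coe]; exact hy4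
  · intro h1
    apply hx
    have hu1 : u = 1 := Subtype.ext h1
    rw [hu1, one_mul] at hy1
    rw [← hy1]
    exact hy4
  · have h2 : c * u * c⁻¹ ∈ cS c D' := by
      rw [mem_cS]
      have : c⁻¹ * (c * u * c⁻¹) * c = u := by group
      rw [this]; exact huD'
    rw [← hc] at h2
    exact h2

end Cfsg.Agent.Lib.Helper82.CY2U
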