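import Cfsg.Agent.Lib.Helper82.CY2U.LOC1

set_option autoImplicit false
set_option linter.unusedSectionVars false
set_option linter.style.haveILetI false

namespace Cfsg.Agent.Lib.Helper82.CY2U

open scoped BigOperators ComplexConjugate
open Cfsg Cfsg.Agent.Lib.Helper20 Cfsg.Agent.Lib.Helper81 Cfsg.Agent.Lib.Helper80
open Cfsg.Agent.Lib.Helper80.GA Cfsg.Agent.Lib.Helper5 Cfsg.Agent.Lib.Helper83.Wat

variable {p : ℕ} [Fact p.Prime] {M : Ideal AlgInt} {G : Type*} [Group G] [Fintype G]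

/-- counting a subset of a product set `T * H` with `C ≤ T ⊓ H` -/
theorem card_le_of_factor {T H C : Subgroup G} (hCT : C ≤ T) (hCH : C ≤ H) (S : Set G)
    (hS : ∀ g ∈ S, ∃ y ∈ T, ∃ c ∈ H, g = y * c) :
    Nat.card S ≤ C.relIndex T * Nat.card H := by
  classical
  choose! y hy c hc hyc using hS
  have hmem : ∀ g : S, (((QuotientGroup.mk (⟨y g, hy g g.2⟩ : T) :
      T ⧸ C.subgroupOf T).out : T) : G)⁻¹ * (g : G) ∈ H := by
    intro g
    obtain ⟨d, hd⟩ := QuotientGroup.mk_out_eq_mul (C.subgroupOf T) (⟨y g, hy g g.2⟩ : T)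
    rw [hd]
    have hdH : ((d : T) : G) ∈ H := hCH (Subgroup.mem_subgroupOf.1 d.2)
    have : (((⟨y g, hy g g.2⟩ : T) * (d : T) : T) : G)⁻¹ * (g : G)
        = ((d : T) : G)⁻¹ * c g := by
      simp only [Subgroup.coe_mul]
      have h3 : (y g)⁻¹ * (g : G) = c g := by
        rw [inv_mul_eq_iff_eq_mul]; exact hyc g g.2
      rw [mul_inv_rev, mul_assoc, h3]
    rw [this]
    exact H.mul_mem (H.inv_mem hdH) (hc g g.2)
  let f : S → (T ⧸ C.subgroupOf T) × H := fun g =>
    (QuotientGroup.mk (⟨y g, hy g g.2⟩ : T), ⟨_, hmem g⟩)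
  have hf : Function.Injective f := by
    intro g g' h
    have h1 := congrArg Prod.fst h
    have h2 := congrArg (fun x => ((Prod.snd x : H) : G)) h
    simp only [f] at h1 h2
    rw [h1] at h2
    exact Subtype.ext (mul_left_cancel h2)
  have := Nat.card_le_card_of_injective f hf
  rwa [Nat.card_prod] at this

theorem lpre_stab (hM : IsPModular p M) {B : Set (IrrCharacter G)} {D : Subgroup G}
    (hcyc : IsCyclic D) {eD : GA (Kr hM) G} (hmax : IsMaxBP p (blkR hM B) D eD) {z : G}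
    {β : Set (IrrCharacter (Cn (Subgroup.zpowers z)))} (h : LPre hM B D eD z β) :
    Nat.card {g : G // g ∈ Nn (Subgroup.zpowers z) ∧ StabilizesBlock (Cn (Subgroup.zpowers z)) β g}
      ≤ (Cn D).relIndex (stabP D eD) * Nat.card (Cn (Subgroup.zpowers z)) := by
  classical
  have hab := loc1_ab hcyc
  have he : IsBP p D eD := hmax.1.1
  have hCT : Cn D ≤ stabP D eD := Cn_le_stabP he.2.inZ
  have hQD : Subgroup.zpowers z ≤ D := zpowers_le_of_mem h.zD
  have hCH : Cn D ≤ Cn (Subgroup.zpowers z) := by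
    intro g hg
    rw [mem_Cn] at hg ⊢
    exact fun x hx => hg x (hQD hx)
  refine card_le_of_factor hCT hCH
    {g : G | g ∈ Nn (Subgroup.zpowers z) ∧ StabilizesBlock (Cn (Subgroup.zpowers z)) β g} ?_
  rintro g ⟨hg1, hg2⟩
  have hg : g ∈ stabP (Subgroup.zpowers z) (bl hM (Cn (Subgroup.zpowers z)) β) := by
    rw [mem_stabP]
    exact ⟨hg1, (stabilizesBlock_iff hM _ h.blk (Nn_le_normalizer_Cn _ hg1)).1 hg2⟩
  exact hmax.abelian_factor hab h.le hg

end Cfsg.Agent.Lib.Helper82.CY2U
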