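import Cfsg.Agent.Lib.Helper82.CY2U.DefsB

set_option autoImplicit false
set_option linter.unusedSectionVars false

namespace Cfsg.Agent.Lib.Helper82.CY2U

open scoped BigOperators ComplexConjugate
open Cfsg Cfsg.Agent.Lib.Helper20

variable {G : Type*} [Group G] [Fintype G]

theorem exists_mult (H : Subgroup G) (θ : IrrCharacter H) (χ : IrrCharacter G) :
    ∃ m : ℤ, (m : ℂ) = classInner (indFun H (θ : H → ℂ)) (χ : G → ℂ) := by
  obtain ⟨n, hn⟩ := isCharacter_classInner_nat'
    (Cfsg.Agent.Lib.Helper19.isCharacter_indFun H (θ : H → ℂ) (isCharacter_of_isIrrCharacter θ.2))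
    (isCharacter_of_isIrrCharacter χ.2)
  exact ⟨n, by rw [hn]; simp⟩

theorem parseval [Fintype (IrrCharacter G)] {f f' : G → ℂ} (hf : IsClassFunction G f)
    (hf' : IsClassFunction G f') :
    classInner f f' = ∑ χ : IrrCharacter G,
      classInner f (χ : G → ℂ) * conj (classInner f' (χ : G → ℂ)) := by
  conv_lhs => rw [eq_sum_classInner_smul hf]
  rw [classInner_sum_left]
  apply Finset.sum_congr rfl
  intro χ _
  rw [classInner_smul_left, classInner_conj_symm]

end Cfsg.Agent.Lib.Helper82.CY2U
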