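import Mathlib

set_option autoImplicit false

/-! Ladder CY2U, rung ORBA (helper10): orbit-stabiliser bookkeeping. -/

namespace Cfsg.Agent.Lib.Helper82.CY2U

open scoped BigOperators

open Classical in
theorem orba {𝒩 Ω : Type*} [Group 𝒩] [Finite 𝒩] [MulAction 𝒩 Ω] (ℋ : Subgroup 𝒩)
    (htriv : ∀ h ∈ ℋ, ∀ ω : Ω, h • ω = ω) (β : Set Ω) [Finite β]
    (hblk : ∀ g : 𝒩, ∀ θ ∈ β, g • θ ∈ β → ∀ φ ∈ β, g • φ ∈ β) :
    ∃ n : β → ℕ, (∀ θ, 1 ≤ n θ) ∧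
      (∀ θ φ : β, (∃ g : 𝒩, g • (θ : Ω) = φ) → n θ = n φ) ∧
      (∀ θ φ : β, Nat.card {g : 𝒩 // g • (θ : Ω) = φ}
        = if (∃ g : 𝒩, g • (θ : Ω) = φ) then n θ * Nat.card ℋ else 0) ∧
      (∀ θ : β, Nat.card {φ : β // ∃ g : 𝒩, g • (θ : Ω) = φ} * n θ * Nat.card ℋ
        = Nat.card {g : 𝒩 // ∀ φ ∈ β, g • φ ∈ β}) := by
  have hle : ∀ ω : Ω, ℋ ≤ MulAction.stabilizer 𝒩 ω := fun ω h hh => htriv h hh ω
  have hdiv : ∀ ω : Ω, Nat.card (MulAction.stabilizer 𝒩 ω) / Nat.card ℋ * Nat.card ℋ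
      = Nat.card (MulAction.stabilizer 𝒩 ω) :=
    fun ω => Nat.div_mul_cancel (Subgroup.card_dvd_of_le (hle ω))
  have hfib : ∀ (ω : Ω) (g0 : 𝒩), Nat.card {g : 𝒩 // g • ω = g0 • ω}
      = Nat.card (MulAction.stabilizer 𝒩 ω) := by
    intro ω g0
    apply Nat.card_congr
    refine ⟨fun g => ⟨g0⁻¹ * g.1, ?_⟩, fun s => ⟨g0 * s.1, ?_⟩, ?_, ?_⟩
    · rw [MulAction.mem_stabilizer_iff, mul_smul, g.2, inv_smul_smul]
    · rw [mul_smul, MulAction.mem_stabilizer_iff.mp s.2]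
    · intro g; ext; simp
    · intro s; ext; simp
  have hstab : ∀ (ω : Ω) (g0 : 𝒩), Nat.card (MulAction.stabilizer 𝒩 (g0 • ω))
      = Nat.card (MulAction.stabilizer 𝒩 ω) := by
    intro ω g0
    rw [MulAction.stabilizer_smul_eq_stabilizer_map_conj]
    exact Subgroup.card_map_of_injective (MulAut.conj g0).injective
  refine ⟨fun θ => Nat.card (MulAction.stabilizer 𝒩 (θ : Ω)) / Nat.card ℋ, ?_, ?_, ?_, ?_⟩
  · intro θ
    show 1 ≤ Nat.card (MulAction.stabilizer 𝒩 (θ : Ω)) / Nat.card ℋ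
    have h1 := hdiv (θ : Ω)
    have h2 : 0 < Nat.card (MulAction.stabilizer 𝒩 (θ : Ω)) := Nat.card_pos
    rcases Nat.eq_zero_or_pos (Nat.card (MulAction.stabilizer 𝒩 (θ : Ω)) / Nat.card ℋ) with h3 | h3
    · rw [h3] at h1
      omega
    · exact h3
  · rintro θ φ ⟨g, hg⟩
    show _ / _ = _ / _
    rw [← hg, hstab]
  · intro θ φ
    split_ifs with h
    · obtain ⟨g0, hg0⟩ := h
      rw [hdiv, ← hg0, hfib]
    · have : IsEmpty {g : 𝒩 // g • (θ : Ω) = φ} := ⟨fun g => h ⟨g.1, g.2⟩⟩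
      exact Nat.card_of_isEmpty
  · intro θ
    rw [mul_assoc, hdiv]
    have e1 : Nat.card {g : 𝒩 // ∀ φ ∈ β, g • φ ∈ β} = Nat.card {g : 𝒩 // g • (θ : Ω) ∈ β} := by
      apply Nat.card_congr
      apply Equiv.subtypeEquivRight
      intro g
      exact ⟨fun h => h θ θ.2, fun h => hblk g θ θ.2 h⟩
    rw [e1]
    have e2 : {g : 𝒩 // g • (θ : Ω) ∈ β} ≃
        Σ φ : {φ : β // ∃ g : 𝒩, g • (θ : Ω) = φ}, {g : 𝒩 // g • (θ : Ω) = (φ.1 : Ω)} :=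
      { toFun := fun g => ⟨⟨⟨g.1 • (θ : Ω), g.2⟩, ⟨g.1, rfl⟩⟩, ⟨g.1, rfl⟩⟩
        invFun := fun x => ⟨x.2.1, by rw [x.2.2]; exact x.1.1.2⟩
        left_inv := fun g => rfl
        right_inv := by
          rintro ⟨⟨⟨φ, hφ⟩, hex⟩, ⟨g, hg⟩⟩
          dsimp only at hg
          subst hg
          rfl }
    letI : Fintype {φ : β // ∃ g : 𝒩, g • (θ : Ω) = φ} := Fintype.ofFinite _
    rw [Nat.card_congr e2, Nat.card_sigma]
    have h4 : ∀ φ : {φ : β // ∃ g : 𝒩, g • (θ : Ω) = φ},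
        Nat.card {g : 𝒩 // g • (θ : Ω) = (φ.1 : Ω)} = Nat.card (MulAction.stabilizer 𝒩 (θ : Ω)) := by
      rintro ⟨φ, g0, hg0⟩
      rw [← hg0]
      exact hfib _ _
    simp only [h4, Finset.sum_const, Finset.card_univ, smul_eq_mul, Nat.card_eq_fintype_card]

end Cfsg.Agent.Lib.Helper82.CY2U
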