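import Cfsg.Agent.Lib.Helper82.CY2U.DefsB

set_option autoImplicit false
set_option linter.unusedSectionVars false

namespace Cfsg.Agent.Lib.Helper82.CY2U

open scoped BigOperators ComplexConjugate
open Cfsg Cfsg.Agent.Lib.Helper20 Cfsg.Agent.Lib.Helper81 Cfsg.Agent.Lib.Helper80
open Cfsg.Agent.Lib.Helper80.GA Cfsg.Agent.Lib.Helper5 Cfsg.Agent.Lib.Helper83.Wat

variable {p : ℕ} [Fact p.Prime] {M : Ideal AlgInt} {G : Type*} [Group G] [Fintype G]

theorem ti_mem_zpowers {D : Subgroup G} (hD : IsPGroup p D) (hcyc : IsCyclic D) {z d : G}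
    (hz : z ∈ D) (hzo : orderOf z = p) (hd : d ∈ D) (hd1 : d ≠ 1) : z ∈ Subgroup.zpowers d := by
  classical
  have hp := (Fact.out : p.Prime)
  obtain ⟨k, hk⟩ := (IsPGroup.iff_orderOf.mp hD) ⟨d, hd⟩
  have hk0 : k ≠ 0 := by
    rintro rfl
    rw [pow_zero, orderOf_eq_one_iff] at hk
    exact hd1 (congrArg Subtype.val hk)
  obtain ⟨j, rfl⟩ := Nat.exists_eq_succ_of_ne_zero hk0
  obtain ⟨w, hwdef⟩ : ∃ w : D, w = (⟨d, hd⟩ : D) ^ (p ^ j) := ⟨_, rfl⟩
  have hw : orderOf w = p := by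
    rw [hwdef, orderOf_pow_of_dvd (pow_ne_zero _ hp.ne_zero) (by rw [hk]; exact pow_dvd_pow p (Nat.le_succ j)),
      hk, pow_succ, Nat.mul_div_cancel_left _ (pow_pos hp.pos _)]
  have hS := IsCyclic.card_pow_eq_one_le (α := D) hp.pos
  have hsub : (Finset.univ.filter (fun a : D => a ∈ Subgroup.zpowers w))
      ⊆ Finset.univ.filter (fun a : D => a ^ p = 1) := by
    intro a ha
    simp only [Finset.mem_filter, Finset.mem_univ, true_and] at ha ⊢
    obtain ⟨i, rfl⟩ := ha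
    show (w ^ i) ^ p = 1
    rw [← zpow_natCast, ← zpow_mul, mul_comm, zpow_mul, zpow_natCast, ← hw, pow_orderOf_eq_one,
      one_zpow]
  have hcard : (Finset.univ.filter (fun a : D => a ∈ Subgroup.zpowers w)).card = p := by
    rw [← Fintype.card_subtype, ← Nat.card_eq_fintype_card]
    exact (Nat.card_zpowers w).trans hw
  have heq := Finset.eq_of_subset_of_card_le hsub (by rw [hcard]; exact hS)
  have hzmem : (⟨z, hz⟩ : D) ∈ Finset.univ.filter (fun a : D => a ^ p = 1) := by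
    simp only [Finset.mem_filter, Finset.mem_univ, true_and]
    apply Subtype.ext
    show z ^ p = 1
    rw [← hzo]
    exact pow_orderOf_eq_one z
  rw [← heq] at hzmem
  simp only [Finset.mem_filter, Finset.mem_univ, true_and] at hzmem
  obtain ⟨i, hi⟩ := hzmem
  refine ⟨((p ^ j : ℕ) : ℤ) * i, ?_⟩
  have h1 := congrArg Subtype.val hi
  rw [hwdef] at h1
  show d ^ (((p ^ j : ℕ) : ℤ) * i) = z
  rw [zpow_mul, zpow_natCast]
  simpa using h1

theorem ti_mem_Cn_iff {z y : G} :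
    y ∈ Subgroup.centralizer ((Subgroup.zpowers z : Subgroup G) : Set G) ↔ Commute y z := by
  rw [Subgroup.mem_centralizer_iff]
  constructor
  · intro h
    exact (h z (Subgroup.mem_zpowers z)).symm
  · rintro h _ ⟨i, rfl⟩
    exact (h.zpow_right i).eq.symm

/-- the element `z` is a power of the `p`-part of any member of `AA` -/
theorem ti_z_pow {D : Subgroup G} (hD : IsPGroup p D) (hcyc : IsCyclic D) {z : G} (hz : z ∈ D)
    (hzo : orderOf z = p) {x u : G} (hx : x ∈ AA p (Cn (Subgroup.zpowers z)) D)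
    (hu : IsPPart p x u) : ∃ i : ℤ, u ^ i = z := by
  have hp := (Fact.out : p.Prime)
  obtain ⟨u', hu', hu1, c, hc, hcd⟩ := hx
  have huu := isPPart_unique hp hu hu'
  subst huu
  have hd1 : c * u * c⁻¹ ≠ 1 := by
    intro h
    exact hu1 (conj_eq_one_iff.mp h)
  obtain ⟨i, hi⟩ := ti_mem_zpowers hD hcyc hz hzo hcd hd1
  have hcz : Commute c z := ti_mem_Cn_iff.mp hc
  have h1 : z = c * u ^ i * c⁻¹ := by
    rw [← conj_zpow]
    exact hi.symm
  refine ⟨i, ?_⟩
  have h2 : c⁻¹ * z * c = u ^ i := by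
    rw [h1]
    group
  rw [← h2, mul_assoc, ← hcz.eq, inv_mul_cancel_left]

/-- rung TI (helper10), first half -/
theorem cent_AA {D : Subgroup G} (hD : IsPGroup p D) (hcyc : IsCyclic D) {z : G} (hz : z ∈ D)
    (hzo : orderOf z = p) {x u : G} (hx : x ∈ AA p (Cn (Subgroup.zpowers z)) D)
    (hu : IsPPart p x u) : Subgroup.centralizer ({u} : Set G) ≤ Cn (Subgroup.zpowers z) := by
  obtain ⟨i, hi⟩ := ti_z_pow hD hcyc hz hzo hx hu
  intro y hy
  rw [Subgroup.mem_centralizer_iff] at hy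
  have hyu : Commute y u := (hy u rfl).symm
  show y ∈ Subgroup.centralizer ((Subgroup.zpowers z : Subgroup G) : Set G)
  rw [ti_mem_Cn_iff, ← hi]
  exact hyu.zpow_right i

/-- rung TI (helper10), second half -/
theorem ti_AA {D : Subgroup G} (hD : IsPGroup p D) (hcyc : IsCyclic D) {z : G} (hz : z ∈ D)
    (hzo : orderOf z = p) {x g : G} (hx : x ∈ AA p (Cn (Subgroup.zpowers z)) D)
    (hgx : g * x * g⁻¹ ∈ AA p (Cn (Subgroup.zpowers z)) D) : g ∈ Nn (Subgroup.zpowers z) := by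
  have hp := (Fact.out : p.Prime)
  obtain ⟨u, hu, -, -⟩ := id hx
  obtain ⟨i, hi⟩ := ti_z_pow hD hcyc hz hzo hx hu
  obtain ⟨j, hj⟩ := ti_z_pow hD hcyc hz hzo hgx (isPPart_conj hu g)
  obtain ⟨-, -, -, ⟨k, hk⟩, -⟩ := id hu
  have hPU : IsPGroup p (Subgroup.zpowers u) := IsPGroup.of_card (n := k) (by rw [Nat.card_zpowers, hk])
  have hCU : IsCyclic (Subgroup.zpowers u) := inferInstance
  have hz1 : z ≠ 1 := by
    rintro rfl
    rw [orderOf_one] at hzo
    exact hp.one_lt.ne hzo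
  have hzU : z ∈ Subgroup.zpowers u := ⟨i, hi⟩
  have hz' : g⁻¹ * z * g = u ^ j := by
    rw [← hj, conj_zpow]
    group
  have hzU' : g⁻¹ * z * g ∈ Subgroup.zpowers u := ⟨j, hz'.symm⟩
  have ho' : orderOf (g⁻¹ * z * g) = p := by
    have : g⁻¹ * z * g = MulAut.conj g⁻¹ z := by simp
    rw [this, MulEquiv.orderOf_eq, hzo]
  have hz1' : g⁻¹ * z * g ≠ 1 := by
    intro h
    rw [h, orderOf_one] at ho'
    exact hp.one_lt.ne ho'
  -- (a) and (b)
  obtain ⟨a, ha⟩ := ti_mem_zpowers hPU hCU hzU' ho' hzU hz1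
  obtain ⟨b, hb⟩ := ti_mem_zpowers hPU hCU hzU hzo hzU' hz1'
  have ha' : z ^ a = g⁻¹ * z * g := ha
  have hb' : (g⁻¹ * z * g) ^ b = z := hb
  have hb2 : g * z * g⁻¹ = z ^ b := by
    have h1 : (g⁻¹ * z * g) ^ b = g⁻¹ * z ^ b * g := by
      have := conj_zpow (a := g⁻¹) (b := z) (i := b)
      simpa using this
    rw [h1] at hb'
    have h2 : z ^ b = g * (g⁻¹ * z ^ b * g) * g⁻¹ := by group
    rw [h2, hb']
  show g ∈ Subgroup.normalizer ((Subgroup.zpowers z : Subgroup G) : Set G)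
  rw [Subgroup.mem_normalizer_iff]
  intro h
  constructor
  · rintro ⟨m, rfl⟩
    refine ⟨b * m, ?_⟩
    show z ^ (b * m) = g * z ^ m * g⁻¹
    rw [zpow_mul, ← hb2, conj_zpow]
  · rintro ⟨m, hm⟩
    have hm' : z ^ m = g * h * g⁻¹ := hm
    refine ⟨a * m, ?_⟩
    show z ^ (a * m) = h
    rw [zpow_mul, ha']
    have h1 : (g⁻¹ * z * g) ^ m = g⁻¹ * z ^ m * g := by
      have := conj_zpow (a := g⁻¹) (b := z) (i := m)
      simpa using this
    rw [h1, hm']
    group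

end Cfsg.Agent.Lib.Helper82.CY2U
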