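import Cfsg.Agent.Lib.Helper82.CY2U.DefsB

set_option autoImplicit false
set_option linter.unusedSectionVars false

namespace Cfsg.Agent.Lib.Helper82.CY2U

open scoped BigOperators ComplexConjugate
open Cfsg Cfsg.Agent.Lib.Helper20 Cfsg.Agent.Lib.Helper81 Cfsg.Agent.Lib.Helper80
open Cfsg.Agent.Lib.Helper80.GA Cfsg.Agent.Lib.Helper5 Cfsg.Agent.Lib.Helper83.Wat

variable {p : ℕ} [Fact p.Prime] {M : Ideal AlgInt} {G : Type*} [Group G] [Fintype G]

/-- rung VANR (helper10) -/
theorem ind_reg (H : Subgroup G) (α : H → ℂ) (hα : ∀ h : H, IsPRegular p h → α h = 0) {g : G}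
    (hg : IsPRegular p g) : indFun H α g = 0 := by
  unfold indFun
  rw [Finset.sum_eq_zero, mul_zero]
  intro x _
  by_cases hx : x⁻¹ * g * x ∈ H
  · have h1 : extendByZero H α (x⁻¹ * g * x) = α ⟨x⁻¹ * g * x, hx⟩ := by
      unfold extendByZero
      exact Subtype.val_injective.extend_apply α 0 ⟨_, hx⟩
    rw [h1]
    apply hα
    unfold IsPRegular at *
    rw [← Subgroup.orderOf_coe]
    have h2 : ((⟨x⁻¹ * g * x, hx⟩ : H) : G) = MulAut.conj x⁻¹ g := by
      simp [MulAut.conj_apply]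
    rw [h2, MulEquiv.orderOf_eq]
    exact hg
  · unfold extendByZero
    apply Function.extend_apply'
    rintro ⟨a, ha⟩
    exact hx (ha ▸ a.2)

end Cfsg.Agent.Lib.Helper82.CY2U
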