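import Cfsg.Agent.Lib.Helper82.CY2U.Abs
import Cfsg.Agent.Lib.Helper82.CY2U.Gram
import Cfsg.Agent.Lib.Helper82.CY2U.ORBA
import Cfsg.Agent.Lib.Helper82.CY2U.ACT
import Cfsg.Agent.Lib.Helper82.CY2U.BLKP
import Cfsg.Agent.Lib.Helper82.CY2U.MULT
import Cfsg.Agent.Lib.Helper82.CY2U.TI
import Cfsg.Agent.Lib.Helper82.CY2U.INB
import Cfsg.Agent.Lib.Helper82.CY2U.VANR
import Cfsg.Agent.Lib.Helper82.CY2U.KDIM
import Cfsg.Agent.Lib.Helper82.CY2U.KNZ
import Cfsg.Agent.Lib.Helper82.CY2U.GENK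
import Cfsg.Agent.Lib.Helper82.CY2U.LOC1
import Cfsg.Agent.Lib.Helper82.CY2U.LOC2
import Cfsg.Agent.Lib.Helper82.CY2U.LOC3
import Cfsg.Agent.Lib.Helper82.CY2U.LOC4

set_option autoImplicit false
set_option linter.unusedSectionVars false
set_option linter.style.haveILetI false

/-! Ladder CY2U: the upper bound `l(B) ≤ e` for a block with cyclic defect group. -/

namespace Cfsg.Agent.Lib.Helper82.CY2U

open scoped BigOperators ComplexConjugate
open Cfsg Cfsg.Agent.Lib.Helper20 Cfsg.Agent.Lib.Helper81 Cfsg.Agent.Lib.Helper80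
open Cfsg.Agent.Lib.Helper80.GA Cfsg.Agent.Lib.Helper5 Cfsg.Agent.Lib.Helper83.Wat

variable {p : ℕ} [Fact p.Prime] {M : Ideal AlgInt} {G : Type*} [Group G] [Fintype G]

set_option maxHeartbeats 1600000 in
theorem core_general (hM : IsPModular p M) {B : Set (IrrCharacter G)}
    (H N : Subgroup G) (hN : N ≤ Subgroup.normalizer (H : Set G)) (hHN : H ≤ N)
    (β : Set (IrrCharacter H)) (hβ : IsPBlock M β) (hind : IsInducedBlock M H β B)
    (e t : ℕ) (hq : Nat.card β = e * t + 1) (hk : Nat.card B = blockRank p B + t)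
    (A : Set G) (hTI : ∀ x ∈ A, ∀ g : G, g * x * g⁻¹ ∈ A → g ∈ N)
    (hcent : ∀ x ∈ A, ∀ u : G, IsPPart p x u → Subgroup.centralizer ({u} : Set G) ≤ H)
    (hsupp : ∀ θ ∈ β, ∀ θ' ∈ β, ∀ h : H, (θ : H → ℂ) h - (θ' : H → ℂ) h ≠ 0 → (h : G) ∈ A)
    (hreg : ∀ θ ∈ β, ∀ θ' ∈ β, ∀ h : H, IsPRegular p h → (θ : H → ℂ) h = (θ' : H → ℂ) h)
    (hstab : Nat.card {g : G // g ∈ N ∧ StabilizesBlock H β g} ≤ e * Nat.card H)
    [Fintype (IrrCharacter G)] (hKne : ∀ χ0 ∈ B, ∃ c ∈ KK p B, c χ0 ≠ 0) :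
    ∃ (n0 : ℕ) (x : Fin t → IrrCharacter G → ℤ), n0 ≤ e ∧
      (∀ j χ, χ ∉ B → x j χ = 0) ∧
      (∀ j (g : G), IsPRegular p g → ∑ χ : IrrCharacter G, (x j χ : ℂ) * (χ : G → ℂ) g = 0) ∧
      (∀ i j, ∑ χ : IrrCharacter G, x i χ * x j χ = (n0 : ℤ) + if i = j then 1 else 0) ∧
      (∀ χ ∈ B, ∃ j, x j χ ≠ 0) ∧ Nat.card B ≤ n0 + t := by
  classical
  haveI : Fintype H := Fintype.ofFinite _
  haveI : Fintype N := Fintype.ofFinite _
  haveI : Finite (IrrCharacter H) := finite_irrCharacter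
  haveI : Fintype β := Fintype.ofFinite _
  letI act : MulAction N (IrrCharacter H) := cjAct H N hN
  have hiff : ∀ (g : N) (θ φ : IrrCharacter H),
      g • θ = φ ↔ IsConjCharOf H (g : G) (θ : H → ℂ) (φ : H → ℂ) := fun g θ φ => cjAct_iff H N hN g θ φ
  have hblk : ∀ g : N, ∀ θ ∈ β, g • θ ∈ β → ∀ φ ∈ β, g • φ ∈ β := by
    intro g θ hθ hgθ φ hφ
    obtain ⟨-, h2⟩ := stab_of_mem hM H hβ (hN g.2) hθ hgθ ((hiff g θ (g • θ)).1 rfl)
    obtain ⟨χ', hχ', hc⟩ := h2 φ hφ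
    rw [(hiff g φ χ').2 hc]
    exact hχ'
  obtain ⟨n, hn1, hn, hcnt, hsz⟩ := orba (H.subgroupOf N)
    (fun h hh ω => cjAct_triv H N hN h (Subgroup.mem_subgroupOf.1 hh) ω) β hblk
  have hcH : Nat.card (H.subgroupOf N) = Nat.card H := card_subgroupOf_of_le hHN
  have hHpos : 0 < Nat.card H := Nat.card_pos
  rw [hcH] at hcnt hsz
  set R : β → β → Prop := fun θ φ => ∃ g : N, g • (θ : IrrCharacter H) = φ with hRdef
  have hR : Equivalence R := by
    refine ⟨fun θ => ⟨1, one_smul _ _⟩, ?_, ?_⟩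
    · rintro θ φ ⟨g, hg⟩
      exact ⟨g⁻¹, by rw [← hg, inv_smul_smul]⟩
    · rintro θ φ ψ ⟨g, hg⟩ ⟨g', hg'⟩
      exact ⟨g' * g, by rw [mul_smul, hg, hg']⟩
  set τ := Nat.card {g : N // ∀ φ ∈ β, g • φ ∈ β} with hτ
  have hτle : τ ≤ e * Nat.card H := by
    refine le_trans ?_ hstab
    apply Nat.card_le_card_of_injective
      (fun g : {g : N // ∀ φ ∈ β, g • φ ∈ β} =>
        (⟨(g.1 : G), g.1.2, hN g.1.2, fun χ hχ => ⟨g.1 • χ, g.2 χ hχ, (hiff g.1 χ _).1 rfl⟩⟩ :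
          {g : G // g ∈ N ∧ StabilizesBlock H β g}))
    intro a b hab
    apply Subtype.ext
    apply Subtype.ext
    exact congrArg (fun w : {g : G // g ∈ N ∧ StabilizesBlock H β g} => (w : G)) hab
  have hcl : ∀ θ : β, Nat.card {φ // R θ φ} * n θ = τ / Nat.card H := by
    intro θ
    symm
    apply Nat.div_eq_of_eq_mul_left hHpos
    exact (hsz θ).symm
  have he' : τ / Nat.card H ≤ e := by
    apply Nat.div_le_of_le_mul
    rw [mul_comm]
    exact hτle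
  have hqΘ : Fintype.card β = e * t + 1 := by rw [← Nat.card_eq_fintype_card]; exact hq
  -- multiplicities
  set mult : IrrCharacter G → β → ℤ := fun χ θ => (exists_mult H (θ : IrrCharacter H) χ).choose
    with hmult
  have hms : ∀ χ (θ : β), ((mult χ θ : ℤ) : ℂ)
      = classInner (indFun H ((θ : IrrCharacter H) : H → ℂ)) (χ : G → ℂ) :=
    fun χ θ => (exists_mult H (θ : IrrCharacter H) χ).choose_spec
  have hdiff : ∀ χ (θ θ' : β), ((mult χ θ - mult χ θ' : ℤ) : ℂ)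
      = classInner (indFun H (((θ : IrrCharacter H) : H → ℂ) - ((θ' : IrrCharacter H) : H → ℂ)))
          (χ : G → ℂ) := by
    intro χ θ θ'
    rw [gr_ind_sub, classInner_sub_left, Int.cast_sub, hms, hms]
  have hcc : ∀ θ φ : β, (Nat.card H : ℂ)⁻¹ * (cc H N (θ : IrrCharacter H) (φ : IrrCharacter H) : ℂ)
      = ((aa R n θ φ : ℤ) : ℂ) := by
    intro θ φ
    have h1 : cc H N (θ : IrrCharacter H) (φ : IrrCharacter H)
        = Nat.card {g : N // g • (θ : IrrCharacter H) = φ} :=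
      Nat.card_congr (Equiv.subtypeEquivRight (fun g => (hiff g _ _).symm))
    rw [h1, hcnt θ φ]
    have hH0 : (Nat.card H : ℂ) ≠ 0 := by exact_mod_cast hHpos.ne'
    by_cases hr : R θ φ
    · rw [aa_pos n hr, if_pos hr]
      push_cast
      field_simp
    · rw [aa_neg n hr, if_neg hr]
      simp
  have hgram : ∀ θ θ' φ φ' : β, ∑ χ, (mult χ θ - mult χ θ') * (mult χ φ - mult χ φ')
      = aa R n θ φ - aa R n θ φ' - aa R n θ' φ + aa R n θ' φ' := by
    intro θ θ' φ φ'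
    have h1 := gram_ind H N hN A hTI (θ : IrrCharacter H) θ' φ φ'
      (hsupp _ θ.2 _ θ'.2) (hsupp _ φ.2 _ φ'.2)
    rw [parseval (Cfsg.Agent.Lib.Helper19.indFun_isClassFunction H _)
      (Cfsg.Agent.Lib.Helper19.indFun_isClassFunction H _)] at h1
    apply Int.cast_injective (α := ℂ)
    rw [Int.cast_sum]
    push_cast
    rw [← hcc, ← hcc, ← hcc, ← hcc, ← mul_sub, ← mul_sub, ← mul_add, ← h1]
    apply Finset.sum_congr rfl
    intro χ _
    rw [← hdiff χ θ θ', ← hdiff χ φ φ', map_intCast]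
    push_cast
    ring
  have hK : Module.finrank ℂ (KK p B) = t := by
    have := finrank_KK p B
    omega
  have hmem : ∀ θ θ' : β, (fun χ => ((mult χ θ - mult χ θ' : ℤ) : ℂ)) ∈ KK p B := by
    intro θ θ'
    refine ⟨fun χ hχ => ?_, fun g hg => ?_⟩
    · show ((mult χ θ - mult χ θ' : ℤ) : ℂ) = 0
      rw [Int.cast_sub, hms, hms, sub_eq_zero]
      exact inb hM H hind θ.2 θ'.2
        (fun h hne u hu => hcent _ (hsupp _ θ.2 _ θ'.2 h hne) u hu) hχ
    · have h1 := congrFun (eq_sum_classInner_smul (Cfsg.Agent.Lib.Helper19.indFun_isClassFunction H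
        (((θ : IrrCharacter H) : H → ℂ) - ((θ' : IrrCharacter H) : H → ℂ)))) g
      rw [ind_reg (p := p) H (((θ : IrrCharacter H) : H → ℂ) - ((θ' : IrrCharacter H) : H → ℂ))
        (fun h hh => sub_eq_zero.2 (hreg _ θ.2 _ θ'.2 h hh)) hg] at h1
      rw [h1]
      simp only [Finset.sum_apply, Pi.smul_apply, smul_eq_mul]
      exact Finset.sum_congr rfl (fun χ _ => by rw [hdiff])
  obtain ⟨n0, x, h0, hxK, hg, hne, hle⟩ := abs_ub R hR n (τ / Nat.card H) e t hn1 hn hcl he' hqΘ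
    mult hgram (KK p B) hK hmem (Set.toFinite B).toFinset
    (fun χ hχ => hKne χ ((Set.Finite.mem_toFinset _).1 hχ))
  refine ⟨n0, x, h0, fun j χ hχ => ?_, fun j g hgr => (hxK j).2 g hgr, hg,
    fun χ hχ => hne χ ((Set.Finite.mem_toFinset _).2 hχ), ?_⟩
  · have h1 : ((x j χ : ℤ) : ℂ) = 0 := (hxK j).1 χ hχ
    exact_mod_cast h1
  · rw [Nat.card_coe_set_eq, Set.ncard_eq_toFinset_card B (Set.toFinite B)]
    exact hle

theorem ub_core (hM : IsPModular p M) {B : Set (IrrCharacter G)} (hB : IsPBlock M B)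
    {D : Subgroup G} (hPD : IsDefectGroup p M B D) (hcyc : IsCyclic D) (hD1 : D ≠ ⊥)
    {eD : GA (Kr hM) G} (hmax : IsMaxBP p (blkR hM B) D eD) [Fintype (IrrCharacter G)] :
    ∃ (n0 t : ℕ) (x : Fin t → IrrCharacter G → ℤ),
      n0 ≤ (Cn D).relIndex (stabP D eD) ∧
      Nat.card D = (Cn D).relIndex (stabP D eD) * t + 1 ∧
      Nat.card B = blockRank p B + t ∧
      (∀ j χ, χ ∉ B → x j χ = 0) ∧
      (∀ j (g : G), IsPRegular p g → ∑ χ : IrrCharacter G, (x j χ : ℂ) * (χ : G → ℂ) g = 0) ∧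
      (∀ i j, ∑ χ : IrrCharacter G, x i χ * x j χ = (n0 : ℤ) + if i = j then 1 else 0) ∧
      (∀ χ ∈ B, ∃ j, x j χ ≠ 0) ∧ Nat.card B ≤ n0 + t := by
  obtain ⟨t, hq, hk⟩ := genk_cyc hM hB hPD hcyc hD1 hmax
  obtain ⟨z, β, hpre⟩ := exists_lpre hM hB hPD hcyc hD1 hmax
  obtain ⟨hcard, hreg⟩ := lpre_card hM hcyc hpre
  have hvan := lpre_van hM hpre
  have hstab := lpre_stab hM hcyc hmax hpre
  have hDp : IsPGroup p D := (isDef_of_isDefectGroup hM hB hPD).pgroup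
  have hab := comm_of_isCyclic hcyc
  obtain ⟨n0, x, h⟩ := core_general hM (Cn (Subgroup.zpowers z)) (Nn (Subgroup.zpowers z))
    (Nn_le_normalizer_Cn _) (Cn_le_Nn _) β hpre.blk hpre.ind _ t (hcard.trans hq) hk
    (AA p (Cn (Subgroup.zpowers z)) D)
    (fun x hx g hg => ti_AA hDp hcyc hpre.zD hpre.zo hx hg)
    (fun x hx u hu => cent_AA hDp hcyc hpre.zD hpre.zo hx hu)
    (by
      intro θ hθ θ' hθ' h hne
      by_contra hA
      by_cases hr : IsPRegular p h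
      · exact hne (sub_eq_zero.2 (hreg θ hθ θ' hθ' h hr))
      · rw [hvan θ hθ h hr hA, hvan θ' hθ' h hr hA, sub_zero] at hne
        exact hne rfl)
    hreg hstab (fun χ0 hχ0 => KK_ne hM hB hPD hab hD1 hχ0)
  exact ⟨n0, t, x, h.1, hq, hk, h.2⟩

/-- **The upper bound** `l(B) ≤ e`. -/
theorem ub (hM : IsPModular p M) {B : Set (IrrCharacter G)} (hB : IsPBlock M B)
    {D : Subgroup G} (hPD : IsDefectGroup p M B D) (hcyc : IsCyclic D) (hD1 : D ≠ ⊥)
    {eD : GA (Kr hM) G} (hmax : IsMaxBP p (blkR hM B) D eD) :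
    blockRank p B ≤ (Cn D).relIndex (stabP D eD) := by
  haveI : Finite (IrrCharacter G) := finite_irrCharacter
  haveI : Fintype (IrrCharacter G) := Fintype.ofFinite _
  obtain ⟨n0, t, x, h0, -, hk, -, -, -, -, hle⟩ := ub_core hM hB hPD hcyc hD1 hmax
  omega

end Cfsg.Agent.Lib.Helper82.CY2U
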