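import Cfsg.Agent.Lib.Helper82.CY2U.DefsB

set_option autoImplicit false
set_option linter.unusedSectionVars false

namespace Cfsg.Agent.Lib.Helper82.CY2U

open scoped BigOperators ComplexConjugate
open Cfsg Cfsg.Agent.Lib.Helper20

variable {G : Type*} [Group G] [Fintype G]

theorem iso_point (H N : Subgroup G) [Fintype N] (A : Set G)
    (hTI : ∀ x ∈ A, ∀ g : G, g * x * g⁻¹ ∈ A → g ∈ N)
    (α' : H → ℂ) (hα' : ∀ h : H, α' h ≠ 0 → (h : G) ∈ A) {y : G} (hy : y ∈ A) :
    indFun H α' y = (Nat.card H : ℂ)⁻¹ * ∑ g : N, extendByZero H α' ((g : G) * y * (g : G)⁻¹) := by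
  classical
  rw [Cfsg.Agent.Lib.Helper19.indFun_apply]
  congr 1
  have h1 : ∑ x : G, extendByZero H α' (x⁻¹ * y * x) = ∑ g : G, extendByZero H α' (g * y * g⁻¹) := by
    apply Fintype.sum_equiv (Equiv.inv G)
    intro x
    simp
  rw [h1, ← Finset.sum_subtype (Finset.univ.filter (· ∈ N)) (p := (· ∈ N)) (by simp)
    (fun g => extendByZero H α' (g * y * g⁻¹))]
  symm
  apply Finset.sum_filter_of_ne
  intro g _ hne
  by_cases hm : g * y * g⁻¹ ∈ H
  · rw [Cfsg.Agent.Lib.Helper19.extendByZero_of_mem H _ hm] at hne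
    exact hTI y hy g (hα' ⟨_, hm⟩ hne)
  · exact absurd (Cfsg.Agent.Lib.Helper19.extendByZero_of_not_mem H _ hm) hne

theorem iso_ind (H N : Subgroup G) [Fintype H] [Fintype N] (A : Set G)
    (hTI : ∀ x ∈ A, ∀ g : G, g * x * g⁻¹ ∈ A → g ∈ N)
    (α α' : H → ℂ) (hα : ∀ h : H, α h ≠ 0 → (h : G) ∈ A) (hα' : ∀ h : H, α' h ≠ 0 → (h : G) ∈ A) :
    classInner (indFun H α) (indFun H α')
      = (Nat.card H : ℂ)⁻¹ * ∑ g : N,
          classInner α (fun h : H => extendByZero H α' ((g : G) * (h : G) * (g : G)⁻¹)) := by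
  classical
  rw [Cfsg.Agent.Lib.Helper19.frobenius_reciprocity H α (indFun H α')
    (Cfsg.Agent.Lib.Helper19.indFun_isClassFunction H α')]
  unfold classInner
  rw [← Finset.mul_sum, Finset.sum_comm]
  congr 1
  rw [Finset.mul_sum]
  apply Finset.sum_congr rfl
  intro h _
  by_cases h0 : α h = 0
  · simp [h0]
  · beta_reduce
    rw [iso_point H N A hTI α' hα' (hα h h0), map_mul, map_inv₀, map_natCast, map_sum,
      Finset.mul_sum, Finset.mul_sum, Finset.mul_sum]
    apply Finset.sum_congr rfl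
    intro g _
    ring

end Cfsg.Agent.Lib.Helper82.CY2U
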