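import Mathlib

set_option autoImplicit false

/-! Ladder CY2U, rung LI (helper10). -/

namespace Cfsg.Agent.Lib.Helper82.CY2U

open scoped BigOperators

theorem li_of_gram {I : Type*} [Fintype I] {m : ℕ} (v : Fin m → I → ℤ) (n0 : ℕ) (n : Fin m → ℕ)
    (hn : ∀ j, 1 ≤ n j)
    (hgram : ∀ i j, ∑ χ, v i χ * v j χ = (n0 : ℤ) + if i = j then (n j : ℤ) else 0) :
    LinearIndependent ℂ (fun j => (fun χ => ((v j χ : ℤ) : ℂ))) := by
  classical
  rw [Fintype.linearIndependent_iff]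
  intro c hc
  have hχ : ∀ χ, ∑ j, c j * (v j χ : ℂ) = 0 := by
    intro χ
    have := congrFun hc χ
    simpa [Finset.sum_apply] using this
  obtain ⟨C, hC⟩ : ∃ C, C = ∑ j, c j := ⟨_, rfl⟩
  have hi : ∀ i, (n0 : ℂ) * C + (n i : ℂ) * c i = 0 := by
    intro i
    have h1 : ∑ χ, (∑ j, c j * (v j χ : ℂ)) * (v i χ : ℂ) = 0 := by
      simp [hχ]
    have h2 : ∑ χ, (∑ j, c j * (v j χ : ℂ)) * (v i χ : ℂ)
        = ∑ j, c j * ((n0 : ℂ) + if j = i then (n i : ℂ) else 0) := by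
      simp only [Finset.sum_mul]
      rw [Finset.sum_comm]
      apply Finset.sum_congr rfl
      intro j _
      have h3 : ∑ χ, ((v j χ : ℂ)) * (v i χ : ℂ) = (n0 : ℂ) + if j = i then (n i : ℂ) else 0 := by
        have := congrArg (fun z : ℤ => (z : ℂ)) (hgram j i)
        simp only [Int.cast_sum, Int.cast_mul, Int.cast_add, Int.cast_natCast] at this
        rw [this]
        split_ifs <;> simp
      rw [← h3, Finset.mul_sum]
      apply Finset.sum_congr rfl
      intro χ _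
      ring
    rw [h2] at h1
    simp only [mul_add, Finset.sum_add_distrib, mul_ite, mul_zero, Finset.sum_ite_eq',
      Finset.mem_univ, if_true] at h1
    rw [← Finset.sum_mul, ← hC] at h1
    linear_combination h1
  have hnne : ∀ i, (n i : ℂ) ≠ 0 := fun i => by
    have := hn i
    exact_mod_cast (by omega : n i ≠ 0)
  have hci : ∀ i, c i = - (n0 : ℂ) * C * (n i : ℂ)⁻¹ := by
    intro i
    have h1 := hi i
    have h2 := hnne i
    field_simp
    linear_combination h1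
  have hC0 : C = 0 := by
    have h1 : C = - (n0 : ℂ) * C * ∑ i, (n i : ℂ)⁻¹ := by
      rw [Finset.mul_sum]
      conv_lhs => rw [hC]
      exact Finset.sum_congr rfl (fun i _ => hci i)
    have h2 : C * (1 + (n0 : ℂ) * ∑ i, (n i : ℂ)⁻¹) = 0 := by linear_combination h1
    have h3 : (1 + (n0 : ℂ) * ∑ i, (n i : ℂ)⁻¹) ≠ 0 := by
      have hpos : (0 : ℝ) < 1 + (n0 : ℝ) * ∑ i, (n i : ℝ)⁻¹ := by positivity
      have h4 : ((1 + (n0 : ℝ) * ∑ i, (n i : ℝ)⁻¹ : ℝ) : ℂ) = 1 + (n0 : ℂ) * ∑ i, (n i : ℂ)⁻¹ := by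
        push_cast
        rfl
      rw [← h4]
      exact_mod_cast hpos.ne'
    exact (mul_eq_zero.mp h2).resolve_right h3
  intro i
  rw [hci i, hC0]
  simp

end Cfsg.Agent.Lib.Helper82.CY2U
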