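import Mathlib

set_option autoImplicit false

/-! Ladder CY2U (upper bound `l(B) ≤ e` for S4695): abstract definitions. -/

namespace Cfsg.Agent.Lib.Helper82.CY2U

/-- the "orbit" Gram function -/
noncomputable def aa {Θ : Type*} (R : Θ → Θ → Prop) (n : Θ → ℕ) (θ φ : Θ) : ℤ := by
  classical exact if R θ φ then (n θ : ℤ) else 0

end Cfsg.Agent.Lib.Helper82.CY2U
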