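import Mathlib
import Cfsg.Agent.Lib.Helper82.CY2U.Defs
import Cfsg.Agent.Lib.Helper82.CY2U.LI

set_option autoImplicit false

/-! Ladder CY2U, rung ORBDIM (helper10). -/

namespace Cfsg.Agent.Lib.Helper82.CY2U

open scoped BigOperators

theorem orbdim {I Θ : Type*} [Fintype I] (R : Θ → Θ → Prop) (hrefl : ∀ θ, R θ θ) (n : Θ → ℕ)
    (hn1 : ∀ θ, 1 ≤ n θ) (mult : I → Θ → ℤ)
    (hgram : ∀ θ θ' φ φ', ∑ χ, (mult χ θ - mult χ θ') * (mult χ φ - mult χ φ')
      = aa R n θ φ - aa R n θ φ' - aa R n θ' φ + aa R n θ' φ')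
    (K : Submodule ℂ (I → ℂ)) (t : ℕ) (hK : Module.finrank ℂ K = t)
    (hmem : ∀ θ θ', (fun χ => ((mult χ θ - mult χ θ' : ℤ) : ℂ)) ∈ K)
    (m : ℕ) (f : Fin m → Θ) (hf : ∀ i j, R (f i) (f j) → i = j) : m ≤ t + 1 := by
  classical
  cases m with
  | zero => omega
  | succ m' =>
    have hli := li_of_gram (fun (j : Fin m') χ => mult χ (f 0) - mult χ (f j.succ)) (n (f 0))
      (fun j => n (f j.succ)) (fun j => hn1 _) (by
        intro i j
        rw [hgram]
        have a1 : aa R n (f 0) (f 0) = n (f 0) := by simp [aa, hrefl]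
        have a2 : aa R n (f 0) (f j.succ) = 0 := by
          have : ¬ R (f 0) (f j.succ) := fun h => (Fin.succ_ne_zero j) (hf _ _ h).symm
          simp [aa, this]
        have a3 : aa R n (f i.succ) (f 0) = 0 := by
          have : ¬ R (f i.succ) (f 0) := fun h => (Fin.succ_ne_zero i) (hf _ _ h)
          simp [aa, this]
        have a4 : aa R n (f i.succ) (f j.succ) = if i = j then (n (f j.succ) : ℤ) else 0 := by
          by_cases hij : i = j
          · subst hij
            simp [aa, hrefl]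
          · have : ¬ R (f i.succ) (f j.succ) := fun h => hij (Fin.succ_injective _ (hf _ _ h))
            simp [aa, this, hij]
        rw [a1, a2, a3, a4]
        ring)
    have hle : Submodule.span ℂ (Set.range (fun (j : Fin m') =>
        (fun χ => ((mult χ (f 0) - mult χ (f j.succ) : ℤ) : ℂ)))) ≤ K := by
      rw [Submodule.span_le]
      rintro _ ⟨j, rfl⟩
      exact hmem _ _
    have h1 := Submodule.finrank_mono hle
    rw [finrank_span_eq_card hli, hK, Fintype.card_fin] at h1
    omega

end Cfsg.Agent.Lib.Helper82.CY2U
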