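import Mathlib

set_option autoImplicit false

/-! Ladder CY2U, rung SPAN (helper10). -/

namespace Cfsg.Agent.Lib.Helper82.CY2U

open scoped BigOperators

theorem exists_ne_of_span {I : Type*} [Fintype I] {t : ℕ} (v : Fin t → I → ℤ)
    (K : Submodule ℂ (I → ℂ)) (hK : Module.finrank ℂ K = t)
    (hli : LinearIndependent ℂ (fun j => (fun χ => ((v j χ : ℤ) : ℂ))))
    (hmem : ∀ j, (fun χ => ((v j χ : ℤ) : ℂ)) ∈ K) {χ0 : I} (c : I → ℂ) (hc : c ∈ K)
    (hc0 : c χ0 ≠ 0) : ∃ j, v j χ0 ≠ 0 := by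
  classical
  have hle : Submodule.span ℂ (Set.range (fun j => (fun χ => ((v j χ : ℤ) : ℂ)))) ≤ K := by
    rw [Submodule.span_le]
    rintro _ ⟨j, rfl⟩
    exact hmem j
  have hfr : Module.finrank ℂ (Submodule.span ℂ (Set.range (fun j => (fun χ => ((v j χ : ℤ) : ℂ)))))
      = Module.finrank ℂ K := by
    rw [finrank_span_eq_card hli, hK, Fintype.card_fin]
  have heq := Submodule.eq_of_le_of_finrank_eq hle hfr
  rw [← heq] at hc
  obtain ⟨a, ha⟩ := (Submodule.mem_span_range_iff_exists_fun ℂ).mp hc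
  by_contra hcon
  push Not at hcon
  apply hc0
  rw [← ha]
  simp [Finset.sum_apply, hcon]

end Cfsg.Agent.Lib.Helper82.CY2U
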