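import Mathlib

set_option autoImplicit false

/-! Ladder CY2U, rung WFK (helper10). -/

namespace Cfsg.Agent.Lib.Helper82.CY2U

open scoped BigOperators

theorem wf_key (t : ℕ) (x : Fin t → ℤ) (hx : ∃ j, x j ≠ 0) :
    (t : ℤ) ≤ ((t : ℤ) + 1) * ∑ j, x j ^ 2 - (∑ j, x j) ^ 2 := by
  classical
  set A := Finset.univ.filter (fun j => x j ≠ 0) with hA
  have h1 : ∑ j, x j = ∑ j ∈ A, x j := by
    symm
    apply Finset.sum_subset (Finset.subset_univ _)
    intro j _ hj
    simpa [hA] using hj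
  have h2 : ∑ j, x j ^ 2 = ∑ j ∈ A, x j ^ 2 := by
    symm
    apply Finset.sum_subset (Finset.subset_univ _)
    intro j _ hj
    have : x j = 0 := by simpa [hA] using hj
    simp [this]
  have hcs : (∑ j ∈ A, x j) ^ 2 ≤ (A.card : ℤ) * ∑ j ∈ A, x j ^ 2 := sq_sum_le_card_mul_sum_sq
  have hQ : (A.card : ℤ) ≤ ∑ j ∈ A, x j ^ 2 := by
    have : ∑ j ∈ A, (1 : ℤ) ≤ ∑ j ∈ A, x j ^ 2 := by
      apply Finset.sum_le_sum
      intro j hj
      have h0 : x j ≠ 0 := by simpa [hA] using hj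
      have : 0 < x j ^ 2 := by positivity
      omega
    simpa using this
  have hs1 : (1 : ℤ) ≤ A.card := by
    obtain ⟨j, hj⟩ := hx
    have : 0 < A.card := Finset.card_pos.mpr ⟨j, by simp [hA, hj]⟩
    exact_mod_cast this
  have hs2 : (A.card : ℤ) ≤ t := by
    have : A.card ≤ (Finset.univ : Finset (Fin t)).card := Finset.card_le_card (Finset.subset_univ _)
    rw [Finset.card_univ, Fintype.card_fin] at this
    exact_mod_cast this
  rw [h1, h2]
  set s : ℤ := (A.card : ℤ)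
  set Q : ℤ := ∑ j ∈ A, x j ^ 2
  have k1 : 0 ≤ ((t : ℤ) + 1 - s) * (Q - s) := mul_nonneg (by linarith) (by linarith)
  have k2 : 0 ≤ (s - 1) * ((t : ℤ) - s) := mul_nonneg (by linarith) (by linarith)
  nlinarith

end Cfsg.Agent.Lib.Helper82.CY2U
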