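import Mathlib
import Cfsg.Agent.Lib.Helper82.CY2U.WFK

set_option autoImplicit false

/-! Ladder CY2U, rung WF (helper10). -/

namespace Cfsg.Agent.Lib.Helper82.CY2U

open scoped BigOperators

theorem wform {I : Type*} [Fintype I] (t n0 : ℕ) (x : Fin t → I → ℤ)
    (hgram : ∀ i j, ∑ χ, x i χ * x j χ = (n0 : ℤ) + if i = j then 1 else 0)
    (S : Finset I) (hS : ∀ χ ∈ S, ∃ j, x j χ ≠ 0) : S.card ≤ n0 + t := by
  classical
  rcases Nat.eq_zero_or_pos t with rfl | ht
  · have : S = ∅ := by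
      apply Finset.eq_empty_of_forall_notMem
      intro χ hχ
      obtain ⟨j, _⟩ := hS χ hχ
      exact j.elim0
    simp [this]
  let w : I → ℤ := fun χ => ((t : ℤ) + 1) * ∑ j, x j χ ^ 2 - (∑ j, x j χ) ^ 2
  have hw0 : ∀ χ, 0 ≤ w χ := by
    intro χ
    by_cases h : ∃ j, x j χ ≠ 0
    · have := wf_key t (fun j => x j χ) h
      have ht' : (0 : ℤ) ≤ t := by positivity
      exact le_trans ht' this
    · push Not at h
      simp [w, h]
  have hwS : ∀ χ ∈ S, (t : ℤ) ≤ w χ := fun χ hχ => wf_key t (fun j => x j χ) (hS χ hχ)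
  have e1 : ∑ χ, ∑ j, x j χ ^ 2 = (t : ℤ) * ((n0 : ℤ) + 1) := by
    rw [Finset.sum_comm]
    have : ∀ j : Fin t, ∑ χ, x j χ ^ 2 = (n0 : ℤ) + 1 := by
      intro j
      have := hgram j j
      simp only [if_true] at this
      rw [← this]
      apply Finset.sum_congr rfl
      intro χ _
      ring
    simp [this]
  have e2 : ∑ χ, (∑ j, x j χ) ^ 2 = (t : ℤ) * t * n0 + t := by
    have : ∀ χ, (∑ j, x j χ) ^ 2 = ∑ i, ∑ j, x i χ * x j χ := by
      intro χ
      rw [sq, Finset.sum_mul_sum]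
    simp only [this]
    rw [Finset.sum_comm]
    have h3 : ∀ i : Fin t, ∑ χ, ∑ j, x i χ * x j χ = (t : ℤ) * n0 + 1 := by
      intro i
      rw [Finset.sum_comm]
      simp only [hgram]
      rw [Finset.sum_add_distrib]
      simp
    simp only [h3]
    simp
    ring
  have etot : ∑ χ, w χ = (t : ℤ) * ((n0 : ℤ) + t) := by
    simp only [w]
    rw [Finset.sum_sub_distrib, ← Finset.mul_sum, e1, e2]
    ring
  have hlow : (S.card : ℤ) * t ≤ ∑ χ, w χ := by
    calc (S.card : ℤ) * t = ∑ χ ∈ S, (t : ℤ) := by simp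
      _ ≤ ∑ χ ∈ S, w χ := Finset.sum_le_sum hwS
      _ ≤ ∑ χ, w χ := Finset.sum_le_sum_of_subset_of_nonneg (Finset.subset_univ _)
          (fun χ _ _ => hw0 χ)
  rw [etot] at hlow
  have ht' : (0 : ℤ) < t := by exact_mod_cast ht
  have : (S.card : ℤ) ≤ (n0 : ℤ) + t := by nlinarith
  exact_mod_cast this

end Cfsg.Agent.Lib.Helper82.CY2U
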