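import Cfsg.Agent.Lib.Helper82.CY2U.CNT
import Cfsg.Agent.Lib.Helper82.CY2U.WF
import Cfsg.Agent.Lib.Helper82.CY2U.LI
import Cfsg.Agent.Lib.Helper82.CY2U.ORBDIM
import Cfsg.Agent.Lib.Helper82.CY2U.SPAN

set_option autoImplicit false

/-! Ladder CY2U: the abstract assembly. -/

namespace Cfsg.Agent.Lib.Helper82.CY2U

open scoped BigOperators

theorem aa_pos {Θ : Type*} {R : Θ → Θ → Prop} (n : Θ → ℕ) {θ φ : Θ} (h : R θ φ) :
    aa R n θ φ = (n θ : ℤ) := by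
  unfold aa; rw [if_pos h]

theorem aa_neg {Θ : Type*} {R : Θ → Θ → Prop} (n : Θ → ℕ) {θ φ : Θ} (h : ¬ R θ φ) :
    aa R n θ φ = 0 := by
  unfold aa; rw [if_neg h]

theorem abs_ub {I Θ : Type*} [Fintype I] [Fintype Θ] (R : Θ → Θ → Prop) (hR : Equivalence R)
    (n : Θ → ℕ) (e' e t : ℕ)
    (hn1 : ∀ θ, 1 ≤ n θ) (hn : ∀ θ φ, R θ φ → n θ = n φ)
    (hcl : ∀ θ, Nat.card {φ // R θ φ} * n θ = e') (he : e' ≤ e)
    (hq : Fintype.card Θ = e * t + 1)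
    (mult : I → Θ → ℤ)
    (hgram : ∀ θ θ' φ φ', ∑ χ, (mult χ θ - mult χ θ') * (mult χ φ - mult χ φ')
      = aa R n θ φ - aa R n θ φ' - aa R n θ' φ + aa R n θ' φ')
    (K : Submodule ℂ (I → ℂ)) (hK : Module.finrank ℂ K = t)
    (hmem : ∀ θ θ', (fun χ => ((mult χ θ - mult χ θ' : ℤ) : ℂ)) ∈ K)
    (S : Finset I) (hS : ∀ χ ∈ S, ∃ c ∈ K, c χ ≠ 0) :
    ∃ (n0 : ℕ) (x : Fin t → I → ℤ), n0 ≤ e ∧ (∀ j, (fun χ => ((x j χ : ℤ) : ℂ)) ∈ K) ∧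
      (∀ i j, ∑ χ, x i χ * x j χ = (n0 : ℤ) + if i = j then 1 else 0) ∧
      (∀ χ ∈ S, ∃ j, x j χ ≠ 0) ∧ S.card ≤ n0 + t := by
  have hm := orbdim R hR.refl n hn1 mult hgram K t hK hmem
  obtain ⟨θ0, θs, h0, h1, h2, h3, h4⟩ := cnt R hR n e' e t hn1 hn hcl he hq hm
  set x : Fin t → I → ℤ := fun j χ => mult χ θ0 - mult χ (θs j) with hx
  have hg : ∀ i j, ∑ χ, x i χ * x j χ = (n θ0 : ℤ) + if i = j then 1 else 0 := by
    intro i j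
    have := hgram θ0 (θs i) θ0 (θs j)
    rw [aa_pos n (hR.refl θ0), aa_neg n (h2 j), aa_neg n (h3 i)] at this
    simp only [hx]
    rw [this]
    by_cases hij : i = j
    · subst hij
      rw [aa_pos n (hR.refl _), h1 i, if_pos rfl]
      simp
    · rw [aa_neg n (fun h => hij (h4 i j h)), if_neg hij]
      simp
  have hxK : ∀ j, (fun χ => ((x j χ : ℤ) : ℂ)) ∈ K := fun j => hmem θ0 (θs j)
  have hli : LinearIndependent ℂ (fun j => (fun χ => ((x j χ : ℤ) : ℂ))) := by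
    apply li_of_gram x (n θ0) (fun _ => 1) (fun _ => le_rfl)
    intro i j
    rw [hg i j]
    simp
  have hne : ∀ χ ∈ S, ∃ j, x j χ ≠ 0 := by
    intro χ hχ
    obtain ⟨c, hc, hc0⟩ := hS χ hχ
    exact exists_ne_of_span x K hK hli hxK c hc hc0
  exact ⟨n θ0, x, h0, hxK, hg, hne, wform t (n θ0) x hg S hne⟩

end Cfsg.Agent.Lib.Helper82.CY2U
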