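import Mathlib

set_option autoImplicit false

/-! Ladder CY2U, rung CNT (helper10): pure orbit counting. -/

namespace Cfsg.Agent.Lib.Helper82.CY2U

open scoped BigOperators

theorem cnt {Θ : Type*} [Fintype Θ] (R : Θ → Θ → Prop) (hR : Equivalence R) (n : Θ → ℕ) (e' e t : ℕ)
    (hn1 : ∀ θ, 1 ≤ n θ) (hn : ∀ θ φ, R θ φ → n θ = n φ)
    (hcl : ∀ θ, Nat.card {φ // R θ φ} * n θ = e') (he : e' ≤ e)
    (hq : Fintype.card Θ = e * t + 1)
    (hm : ∀ (m : ℕ) (f : Fin m → Θ), (∀ i j, R (f i) (f j) → i = j) → m ≤ t + 1) :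
    ∃ (θ0 : Θ) (θs : Fin t → Θ), n θ0 ≤ e ∧ (∀ j, n (θs j) = 1) ∧ (∀ j, ¬ R θ0 (θs j)) ∧
      (∀ j, ¬ R (θs j) θ0) ∧ (∀ i j, R (θs i) (θs j) → i = j) := by
  classical
  let s : Setoid Θ := ⟨R, hR⟩
  let Qt := Quotient s
  haveI : Fintype Qt := Fintype.ofFinite _
  have hout : ∀ x y : Qt, R x.out y.out → x = y := by
    intro x y h
    rw [← Quotient.out_eq x, ← Quotient.out_eq y]
    exact Quotient.sound h
  have hc1 : Fintype.card Qt ≤ t + 1 := by
    apply hm (Fintype.card Qt) (fun i => ((Fintype.equivFin Qt).symm i).out)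
    intro i j h
    exact (Fintype.equivFin Qt).symm.injective (hout _ _ h)
  let sz : Qt → ℕ := fun x => Nat.card {φ // R x.out φ}
  have hsz : ∀ x, sz x * n x.out = e' := fun x => hcl _
  have hsum : Fintype.card Θ = ∑ x : Qt, sz x := by
    rw [Fintype.card_congr (Equiv.sigmaFiberEquiv (Quotient.mk s)).symm, Fintype.card_sigma]
    apply Finset.sum_congr rfl
    intro x _
    rw [← Nat.card_eq_fintype_card]
    apply Nat.card_congr
    apply Equiv.subtypeEquivRight
    intro θ
    constructor
    · intro h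
      have : Quotient.mk s x.out = Quotient.mk s θ := by rw [Quotient.out_eq, h]
      exact Quotient.exact this
    · intro h
      rw [← Quotient.out_eq x]
      exact (Quotient.sound h).symm
  have hle : ∀ x, sz x ≤ e' := by
    intro x
    have := hsz x
    have h1 := hn1 x.out
    nlinarith
  have hpos : ∀ x, 1 ≤ sz x := by
    intro x
    haveI : Nonempty {φ // R x.out φ} := ⟨⟨x.out, hR.refl _⟩⟩
    exact Nat.card_pos
  have hle2 : ∀ x, 2 ≤ n x.out → 2 * sz x ≤ e' := by
    intro x h2
    have := hsz x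
    nlinarith
  -- the number of classes is exactly t + 1
  have hc2 : Fintype.card Qt = t + 1 := by
    by_contra hne
    have hlt : Fintype.card Qt ≤ t := by omega
    have h1 : ∑ x : Qt, sz x ≤ Fintype.card Qt * e' := by
      have := Finset.sum_le_card_nsmul (Finset.univ : Finset Qt) sz e' (fun x _ => hle x)
      simpa using this
    have h2 : Fintype.card Qt * e' ≤ t * e := Nat.mul_le_mul hlt he
    rw [← hsum, hq] at h1
    nlinarith
  -- at most one class with n ≥ 2
  have huniq : ∀ x y : Qt, 2 ≤ n x.out → 2 ≤ n y.out → x = y := by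
    intro x y hx hy
    by_contra hxy
    have hy' : y ∈ (Finset.univ : Finset Qt).erase x := by
      simp [Ne.symm hxy]
    have e1 : ∑ z : Qt, sz z = sz x + (sz y + ∑ z ∈ ((Finset.univ : Finset Qt).erase x).erase y, sz z) := by
      rw [Finset.add_sum_erase _ _ hy', Finset.add_sum_erase _ _ (Finset.mem_univ x)]
    have hk : (((Finset.univ : Finset Qt).erase x).erase y).card + 2 = t + 1 := by
      rw [Finset.card_erase_of_mem hy', Finset.card_erase_of_mem (Finset.mem_univ x),
        Finset.card_univ, hc2]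
      have : 2 ≤ Fintype.card Qt := by
        have := Fintype.one_lt_card_iff.mpr ⟨x, y, hxy⟩
        omega
      omega
    have h1 : ∑ z ∈ ((Finset.univ : Finset Qt).erase x).erase y, sz z
        ≤ (((Finset.univ : Finset Qt).erase x).erase y).card * e' := by
      have := Finset.sum_le_card_nsmul (((Finset.univ : Finset Qt).erase x).erase y) sz e'
        (fun z _ => hle z)
      simpa using this
    have hx2 := hle2 x hx
    have hy2 := hle2 y hy
    set k := (((Finset.univ : Finset Qt).erase x).erase y).card with hkdef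
    have ht : t = k + 1 := by omega
    have h3 : e * t + 1 ≤ e' + k * e' := by
      rw [← hq, hsum, e1]
      omega
    have h4 : e' + k * e' ≤ e + k * e := by
      have := Nat.mul_le_mul_left k he
      omega
    subst ht
    nlinarith
  haveI : Nonempty Qt := by
    apply Fintype.card_pos_iff.mp
    omega
  obtain ⟨x0, hx0⟩ : ∃ x0 : Qt, ∀ x : Qt, x ≠ x0 → n x.out = 1 := by
    by_cases hex : ∃ x : Qt, 2 ≤ n x.out
    · obtain ⟨x0, h0⟩ := hex
      refine ⟨x0, fun x hx => ?_⟩
      by_contra h1
      have := hn1 x.out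
      exact hx (huniq x x0 (by omega) h0)
    · push_neg at hex
      refine ⟨Classical.arbitrary Qt, fun x _ => ?_⟩
      have := hn1 x.out
      have := hex x
      omega
  have hcard : Fintype.card {x : Qt // x ≠ x0} = t := by
    rw [Fintype.card_subtype_compl, Fintype.card_subtype_eq, hc2]
    rfl
  let E : Fin t ≃ {x : Qt // x ≠ x0} := (Fintype.equivFinOfCardEq hcard).symm
  refine ⟨x0.out, fun j => (E j).1.out, ?_, ?_, ?_, ?_, ?_⟩
  · have h1 := hsz x0
    have h2 := hpos x0
    have : n x0.out ≤ e' := by nlinarith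
    omega
  · intro j
    exact hx0 _ (E j).2
  · intro j h
    exact (E j).2 (hout _ _ h).symm
  · intro j h
    exact (E j).2 (hout _ _ h)
  · intro i j h
    exact E.injective (Subtype.ext (hout _ _ h))

end Cfsg.Agent.Lib.Helper82.CY2U
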