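import Cfsg.Agent.Lib.Helper82.CY2U.Defs
import Cfsg.Agent.Lib.Helper78.Cyc1Nilc
import Cfsg.Agent.Lib.Helper78.Cyc1Deg
import Cfsg.Agent.Lib.Helper5.MajorNV
import Cfsg.Agent.Lib.Helper19.IndChar
import Cfsg.Agent.Lib.Helper19.IndFun2
import Cfsg.Agent.Lib.Helper81.SecondMain3
import Cfsg.Agent.Lib.Helper80.GAStab
import Cfsg.Agent.Lib.Helper80.GAAb
import Cfsg.Agent.S4636

set_option autoImplicit false

/-! Ladder CY2U (upper bound `l(B) ≤ e` for S4695): concrete definitions. -/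

namespace Cfsg.Agent.Lib.Helper82.CY2U

open Cfsg

variable {G : Type*} [Group G]

/-- coefficient vectors supported on `B` whose combination vanishes on the `p`-regular elements -/
def KK (p : ℕ) (B : Set (IrrCharacter G)) [Fintype (IrrCharacter G)] :
    Submodule ℂ (IrrCharacter G → ℂ) where
  carrier := {c | (∀ χ, χ ∉ B → c χ = 0) ∧
    ∀ g : G, IsPRegular p g → ∑ χ : IrrCharacter G, c χ * (χ : G → ℂ) g = 0}
  add_mem' := by
    rintro a b ⟨ha1, ha2⟩ ⟨hb1, hb2⟩
    refine ⟨fun χ hχ => by simp [ha1 χ hχ, hb1 χ hχ], fun g hg => ?_⟩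
    simp only [Pi.add_apply, add_mul, Finset.sum_add_distrib, ha2 g hg, hb2 g hg, add_zero]
  zero_mem' := ⟨fun _ _ => rfl, fun g _ => by simp⟩
  smul_mem' := by
    rintro r a ⟨ha1, ha2⟩
    refine ⟨fun χ hχ => by simp [ha1 χ hχ], fun g hg => ?_⟩
    simp only [Pi.smul_apply, smul_eq_mul, mul_assoc, ← Finset.mul_sum, ha2 g hg, mul_zero]

/-- the "good" elements: the `p`-part is not `1` and is `H`-conjugate into `D` -/
def AA (p : ℕ) (H D : Subgroup G) : Set G :=
  {x | ∃ u : G, IsPPart p x u ∧ u ≠ 1 ∧ ∃ c ∈ H, c * u * c⁻¹ ∈ D}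

/-- The local data: `z ∈ D` of order `p`, `H = C_G(z)`, `β` the block of `H` below `(D, e_D)`. -/
structure LData (p : ℕ) (M : Ideal AlgInt) (B : Set (IrrCharacter G)) (D : Subgroup G) (e : ℕ)
    (z : G) (β : Set (IrrCharacter (Subgroup.centralizer ((Subgroup.zpowers z : Subgroup G) : Set G)))) :
    Prop where
  zD : z ∈ D
  zo : orderOf z = p
  ind : IsInducedBlock M (Subgroup.centralizer ((Subgroup.zpowers z : Subgroup G) : Set G)) β B
  card : Nat.card β = Nat.card D
  reg : ∀ θ ∈ β, ∀ θ' ∈ β, ∀ h : Subgroup.centralizer ((Subgroup.zpowers z : Subgroup G) : Set G),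
    IsPRegular p h → (θ : Subgroup.centralizer ((Subgroup.zpowers z : Subgroup G) : Set G) → ℂ) h
      = (θ' : Subgroup.centralizer ((Subgroup.zpowers z : Subgroup G) : Set G) → ℂ) h
  van : ∀ θ ∈ β, ∀ h : Subgroup.centralizer ((Subgroup.zpowers z : Subgroup G) : Set G),
    ¬ IsPRegular p h →
    (h : G) ∉ AA p (Subgroup.centralizer ((Subgroup.zpowers z : Subgroup G) : Set G)) D →
    (θ : Subgroup.centralizer ((Subgroup.zpowers z : Subgroup G) : Set G) → ℂ) h = 0
  stab : Nat.card {g : G // g ∈ Subgroup.normalizer ((Subgroup.zpowers z : Subgroup G) : Set G) ∧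
      StabilizesBlock (Subgroup.centralizer ((Subgroup.zpowers z : Subgroup G) : Set G)) β g}
    ≤ e * Nat.card (Subgroup.centralizer ((Subgroup.zpowers z : Subgroup G) : Set G))

section GAlevel

open Cfsg.Agent.Lib.Helper80 Cfsg.Agent.Lib.Helper80.GA

/-- intermediate local data (GA level) -/
structure LPre {p : ℕ} {M : Ideal AlgInt} {G : Type*} [Group G] [Fintype G] (hM : IsPModular p M)
    (B : Set (IrrCharacter G)) (D : Subgroup G)
    (eD : GA (Kr hM) G) (z : G) (β : Set (IrrCharacter (Cn (Subgroup.zpowers z)))) : Prop where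
  zD : z ∈ D
  zo : orderOf z = p
  blk : IsPBlock M β
  le : BPLE p (Subgroup.zpowers z, bl hM (Cn (Subgroup.zpowers z)) β) (D, eD)
  ind : IsInducedBlock M (Cn (Subgroup.zpowers z)) β B
  nil : IsNilpotentBlock p M β
  dg : IsDefectGroup p M β (D.subgroupOf (Cn (Subgroup.zpowers z)))

end GAlevel

end Cfsg.Agent.Lib.Helper82.CY2U
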