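import Cfsg.Agent.Lib.Helper82.CY2U.LOC1
import Cfsg.Agent.Lib.Helper83.Wat.MAIN
import Cfsg.Agent.Lib.Helper5.FreeCount
import Cfsg.Agent.Lib.Helper5.CycAct
import Cfsg.Agent.S4689

set_option autoImplicit false
set_option linter.unusedSectionVars false
set_option linter.style.haveILetI false

namespace Cfsg.Agent.Lib.Helper82.CY2U

open scoped BigOperators ComplexConjugate
open Cfsg Cfsg.Agent.Lib.Helper20 Cfsg.Agent.Lib.Helper81 Cfsg.Agent.Lib.Helper80
open Cfsg.Agent.Lib.Helper80.GA Cfsg.Agent.Lib.Helper5 Cfsg.Agent.Lib.Helper83.Wat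

variable {p : ℕ} [Fact p.Prime] {M : Ideal AlgInt} {G : Type*} [Group G] [Fintype G]

theorem genk_cyc (hM : IsPModular p M) {B : Set (IrrCharacter G)} (hB : IsPBlock M B)
    {D : Subgroup G} (hPD : IsDefectGroup p M B D) (hcyc : IsCyclic D) (hD1 : D ≠ ⊥)
    {eD : GA (Kr hM) G} (hmax : IsMaxBP p (blkR hM B) D eD) :
    ∃ t : ℕ, Nat.card D = (Cn D).relIndex (stabP D eD) * t + 1 ∧
      Nat.card B = blockRank p B + t := by
  classical
  have hab := loc1_ab hcyc
  have hfree := loc1_free hM hcyc hmax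
  have he : IsBP p D eD := hmax.1.1
  have hCT : Cn D ≤ stabP D eD := Cn_le_stabP he.2.inZ
  have hell : ∀ u : D, (u : G) ≠ 1 → ell hM D eD (Cx (u : G)) = 1 := by
    intro u hu1
    have hR : Subgroup.zpowers (u : G) ≤ D := zpowers_le_of_mem u.2
    have key : ∀ (H : Subgroup G) (_ : H = Cn (Subgroup.zpowers (u : G))),
        ell hM D eD H = 1 := by
      intro H hH
      subst hH
      obtain ⟨b, hb⟩ := bel_exists hM he hab hR rfl
      have hle := bel_bple hM he hab hR rfl hb
      have hbp : IsBPOf p (blkR hM B) (Subgroup.zpowers (u : G))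
          (bl hM (Cn (Subgroup.zpowers (u : G))) b) := hle.isBPOf_iff.1 hmax.1
      have hQ1 : Subgroup.zpowers (u : G) ≠ ⊥ := by
        rw [Ne, Subgroup.zpowers_eq_bot]; exact hu1
      have hnil := local_nilpotent_of_free hM hmax hab hfree hQ1 hb.1 hbp
      haveI : Fintype (Cn (Subgroup.zpowers (u : G))) := Fintype.ofFinite _
      rw [ell_eq hM he (le_Cn_of_abelian hab hR) hb]
      exact (Cfsg.Agent.S4689.result p M hM b hnil).1
    exact key _ (Cx_eq (u : G))
  have hinf : ∀ u : D, (u : G) ≠ 1 → (stabP D eD ⊓ Cx (u : G) : Subgroup G) = Cn D := by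
    intro u hu1
    apply le_antisymm
    · intro g hg
      refine hfree g hg.1 u u.2 hu1 ?_
      have := mem_Cx.1 hg.2
      rw [← this, mul_inv_cancel_right]
    · intro g hg
      refine ⟨hCT hg, mem_Cx.2 ?_⟩
      exact (mem_Cn.1 hg) u u.2
  have hgen := genk hM hB hmax hab
  have hterm : ∀ u : D, (ell hM D eD (Cx (u : G)) : ℂ) *
      (Nat.card (stabP D eD ⊓ Cx (u : G) : Subgroup G) : ℂ)
      = (if u = 1 then ((blockRank p B * Nat.card (stabP D eD) : ℕ) : ℂ) - (Nat.card (Cn D) : ℂ)
          else 0) + (Nat.card (Cn D) : ℂ) := by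
    intro u
    by_cases hu : u = 1
    · subst hu
      rw [if_pos rfl]
      have h1 : ((1 : D) : G) = 1 := rfl
      rw [h1, ell_one hM hB hmax, Cx_one_eq_top, inf_top_eq]
      push_cast; ring
    · have hu1 : (u : G) ≠ 1 := fun h => hu (Subtype.ext h)
      rw [if_neg hu, hell u hu1, hinf u hu1]
      simp
  rw [Finset.sum_congr rfl (fun u _ => hterm u), Finset.sum_add_distrib,
    Finset.sum_ite_eq' Finset.univ (1 : D), if_pos (Finset.mem_univ _), Finset.sum_const,
    Finset.card_univ, ← Nat.card_eq_fintype_card (α := D)] at hgen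
  have hTC : Nat.card (stabP D eD) = (Cn D).relIndex (stabP D eD) * Nat.card (Cn D) := by
    have := Subgroup.relIndex_mul_relIndex (⊥ : Subgroup G) (Cn D) (stabP D eD) bot_le hCT
    rw [Subgroup.relIndex_bot_left, Subgroup.relIndex_bot_left] at this
    rw [← this, mul_comm]
  set T := Nat.card (stabP D eD) with hT
  set c := Nat.card (Cn D) with hc
  set e := (Cn D).relIndex (stabP D eD) with he'
  set k := Nat.card B with hk
  set l := blockRank p B with hl
  set q := Nat.card D with hq
  have hc0 : 0 < c := Nat.card_pos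
  have hq0 : 0 < q := Nat.card_pos
  have hnat : T * k + c = l * T + q * c := by
    have : ((T * k + c : ℕ) : ℂ) = ((l * T + q * c : ℕ) : ℂ) := by
      push_cast
      rw [hgen]
      push_cast
      simp only [nsmul_eq_mul]
      ring
    exact_mod_cast this
  rw [hTC] at hnat
  have h2 : e * k + 1 = l * e + q := by
    have : (e * k + 1) * c = (l * e + q) * c := by nlinarith [hnat]
    exact Nat.eq_of_mul_eq_mul_right hc0 this
  have he0 : 0 < e := by
    rcases Nat.eq_zero_or_pos e with h0 | h0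
    · exfalso
      have : T = 0 := by rw [hTC, h0, zero_mul]
      have hTpos : 0 < T := Nat.card_pos
      omega
    · exact h0
  have hlk : l ≤ k := by
    by_contra hcon
    rw [not_le] at hcon
    have : e * (k + 1) ≤ e * l := Nat.mul_le_mul_left e hcon
    nlinarith
  refine ⟨k - l, ?_, by omega⟩
  obtain ⟨t, ht⟩ := Nat.exists_eq_add_of_le hlk
  have : k - l = t := by omega
  rw [this]
  rw [ht] at h2
  nlinarith

end Cfsg.Agent.Lib.Helper82.CY2U
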